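import Cfsg.Agent.Classical.UTwo
import Cfsg.Agent.Classical.USimple
import Cfsg.Agent.DecompMax.UnitBase
import Cfsg.Agent.Linear.Transvection

/-!
Groups of isometries over a field with `p ^ 2` elements normalised by the transvections: one
transvection, or one non-scalar element, already gives all transvections.
-/

set_option autoImplicit false
set_option linter.unusedSectionVars false

namespace Cfsg.Agent.MaxSub.CSixU

open Classical.U DecompMax.UN

universe u

variable {F : Type u} [Field F] {n q : ℕ} (hF : SqField F q)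
include hF

theorem char_eq_of_prime (hq : q.Prime) : CharP F q := by
  obtain ⟨p, k, hp, hc, hpk⟩ := hF.exists_char
  have : p = q := by
    rcases Nat.eq_zero_or_pos k with rfl | hk
    · rw [hpk, pow_zero] at hq; exact absurd hq Nat.not_prime_one
    · exact (Nat.prime_dvd_prime_iff_eq hp hq).1 (by rw [hpk]; exact dvd_pow_self p hk.ne')
  exact this ▸ hc

theorem exists_nat_mul_skew (hq : q.Prime) {a b : F} (ha : a ≠ 0) (haq : a ^ q = -a)
    (hbq : b ^ q = -b) : ∃ k : ℕ, b = (k : F) * a := by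
  have := char_eq_of_prime hF hq
  have := Fact.mk hq
  have h : b / a ∈ (⊥ : Subfield F) := by
    rw [Subfield.mem_bot_iff_pow_eq_self (F := F) (p := q), div_pow, haq, hbq, neg_div_neg_eq]
  let := ZMod.algebra F q
  rw [Subfield.bot_eq_of_zMod_algebra (K := F) q] at h
  obtain ⟨z, hz⟩ := RingHom.mem_fieldRange.1 h
  refine ⟨z.val, ?_⟩
  have e : (ZMod.castHom (dvd_refl q) F) z = (z.val : F) := by
    rw [← ZMod.natCast_zmod_val z, map_natCast, ZMod.natCast_zmod_val]
  rw [← e, show (ZMod.castHom (dvd_refl q) F) z = b / a from hz, div_mul_cancel₀ _ ha]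

theorem trv_pow {e : Fin n → F} {a : F} (h : TrvCond q e a) (k : ℕ) (w : Fin n → F) :
    (trv hF h ^ k : UG n F q).1 w = w + ((k : F) * a * herm q w e) • e := by
  induction k generalizing w with
  | zero => simp
  | succ k ih =>
    rw [pow_succ, Subgroup.coe_mul, LinearEquiv.mul_apply, ih, trv_apply, herm_add_left,
      herm_smul_left, h.1, mul_zero, add_zero, Nat.cast_succ]
    module

theorem mem_ctr_of_one (hq : q.Prime) {M : Subgroup (UG n F q)} {e : Fin n → F} {a : F}
    (h : TrvCond q e a) (ha : a ≠ 0) (hm : trv hF h ∈ M) : e ∈ ctr hF M := by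
  refine ⟨h.1, fun b hb => ?_⟩
  obtain ⟨k, rfl⟩ := exists_nat_mul_skew hF hq ha h.2 hb.2
  convert pow_mem hm k using 1
  refine Subtype.ext (LinearEquiv.ext fun w => ?_)
  rw [trv_pow, trv_apply]

/-- Closure of the centres under conjugation by elements normalising `M`. -/
theorem ctr_conj {M : Subgroup (UG n F q)} {g : UG n F q} (hg : ∀ k ∈ M, g * k * g⁻¹ ∈ M)
    {e : Fin n → F} (he : e ∈ ctr hF M) : g.1 e ∈ ctr hF M := by
  refine ⟨by rw [UG_app]; exact he.1, fun a h => ?_⟩
  have h' : TrvCond q e a := ⟨he.1, h.2⟩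
  convert hg _ (he.2 a h') using 1
  refine Subtype.ext (LinearEquiv.ext fun w => ?_)
  rw [Subgroup.coe_mul, Subgroup.coe_mul, LinearEquiv.mul_apply, LinearEquiv.mul_apply, trv_apply,
    trv_apply, map_add, map_smul, ← UG_app g ((g⁻¹ : UG n F q).1 w) e]
  simp

theorem all_ctr_of_one {M : Subgroup (UG n F q)} (hM : ∀ t ∈ TG n F q, ∀ k ∈ M, t * k * t⁻¹ ∈ M)
    {e : Fin n → F} (he : e ∈ ctr hF M) (he0 : e ≠ 0) {v : Fin n → F} (hv : herm q v v = 0) :
    v ∈ ctr hF M := by
  rcases eq_or_ne v 0 with rfl | hv0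
  · simpa using ctr_smul hF he 0
  obtain ⟨g, hg, c, hc, hgv⟩ := TG_transitive_lines hF he0 he.1 hv0 hv
  have := ctr_smul hF (ctr_conj hF (hM g hg) he) c⁻¹
  rwa [hgv, smul_smul, inv_mul_cancel₀ hc, one_smul] at this

theorem TG_le_of_all_ctr {M : Subgroup (UG n F q)}
    (h : ∀ v : Fin n → F, herm q v v = 0 → v ∈ ctr hF M) : TG n F q ≤ M := by
  refine (Subgroup.closure_le M).2 ?_
  rintro g ⟨e, a, hc, hg⟩
  rw [mem_TG_generator hF hc hg]
  exact (h e hc.1).2 a hc

/-- In dimension two a non-central normal subgroup contains all transvections. -/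
theorem trv_mem_of_normal_two (hq : q.Prime) (h5 : 5 ≤ q) (N : Subgroup (SUG 2 F q))
    (hN : N.Normal) (hsc : ∃ g ∈ N, ¬ ∃ c : F, ∀ v, g.1.1 v = c • v) {e : Fin 2 → F} {a : F}
    (h : TrvCond q e a) : ∃ g ∈ N, g.1 = trv hF h := by
  have := Fact.mk hq
  obtain ⟨φ⟩ := SU_two_equiv hF (K := ZMod q) (Nat.card_zmod q)
  set ψ := (suEquiv 2 F q).symm.trans φ with hψ
  set N' := N.map ψ.toMonoidHom with hN'
  have hN'n : N'.Normal := hN.map _ ψ.surjective
  have hsimp : IsSimpleGroup (Matrix.ProjectiveSpecialLinearGroup (Fin 2) (ZMod q)) :=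
    Linear.isSimpleGroup_PSL_fin 2 le_rfl (fun _ => by rw [Nat.card_zmod]; omega)
  have hπn := hN'n.map (QuotientGroup.mk' (Subgroup.center _))
    (QuotientGroup.mk'_surjective _)
  rcases hsimp.eq_bot_or_eq_top_of_normal _ hπn with hb | ht
  · exfalso
    obtain ⟨g, hg, hgs⟩ := hsc
    refine hgs (center_SUG_scalar hF le_rfl g (Subgroup.mem_center_iff.2 fun k => ?_))
    have h1 : ψ g ∈ Subgroup.center _ := by
      rw [← QuotientGroup.eq_one_iff, ← Subgroup.mem_bot, ← hb]
      exact ⟨ψ g, ⟨g, hg, rfl⟩, rfl⟩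
    exact ψ.injective (by simpa using Subgroup.mem_center_iff.1 h1 (ψ k))
  · obtain ⟨hfin, -⟩ := id hF
    let t : SUG 2 F q := ⟨trv hF h, TG_le_SUG hF (trv_mem hF h)⟩
    obtain ⟨x, ⟨g, hg, rfl⟩, hx⟩ :=
      (ht ▸ Subgroup.mem_top (QuotientGroup.mk' _ (ψ t)) : _ ∈ N'.map (QuotientGroup.mk' _))
    set z := g⁻¹ * t with hzdef
    have hz : z ∈ Subgroup.center (SUG 2 F q) := by
      rw [Subgroup.mem_center_iff]
      intro k
      refine ψ.injective ?_
      have h1 : ψ z ∈ Subgroup.center _ := by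
        rw [hzdef, map_mul, map_inv, ← QuotientGroup.eq]
        exact hx
      simpa using Subgroup.mem_center_iff.1 h1 (ψ k)
    have hzz : z * z = 1 := by
      have h2 : Nat.card (Subgroup.center (SUG 2 F q)) ∣ 2 := by
        rw [card_center_SUG hF le_rfl]; exact Nat.gcd_dvd_left _ _
      have := orderOf_dvd_iff_pow_eq_one.1
        ((orderOf_dvd_natCard (⟨z, hz⟩ : Subgroup.center (SUG 2 F q))).trans h2)
      simpa [pow_two] using congrArg Subtype.val this
    have htt : t * t = g * g := by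
      rw [show t = g * z by rw [hzdef]; group, mul_assoc g z, ← mul_assoc z g,
        ← Subgroup.mem_center_iff.1 hz g, mul_assoc g z z, hzz, mul_one]
    obtain ⟨m, hm⟩ := hq.odd_of_ne_two (by omega)
    have htq : t ^ q = 1 := by
      have := char_eq_of_prime hF hq
      refine Subtype.ext (Subtype.ext (LinearEquiv.ext fun w => ?_))
      simp only [Subgroup.coe_pow, OneMemClass.coe_one, LinearEquiv.coe_one, id_eq]
      have := trv_pow hF h q w
      rw [Subgroup.coe_pow] at this
      rw [this]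
      simp
    refine ⟨t, ?_, rfl⟩
    have : t = (t * t) ^ (m + 1) := by
      rw [← pow_two, ← pow_mul, show 2 * (m + 1) = q + 1 by omega, pow_succ, htq, one_mul]
    rw [this, htt]
    exact pow_mem (mul_mem hg hg) _

/-- A non-scalar element of a group normalised by the transvections gives all of them. -/
theorem all_ctr_of_normal (hq : q.Prime) (hq2 : q ≠ 2) (hn : 2 ≤ n) (h5 : n = 2 → 5 ≤ q)
    {M : Subgroup (UG n F q)} (hM : ∀ t ∈ TG n F q, ∀ k ∈ M, t * k * t⁻¹ ∈ M)
    {f : UG n F q} (hf : f ∈ M) (hfs : ¬ ∃ c : F, ∀ v, f.1 v = c • v) {v : Fin n → F}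
    (hv : herm q v v = 0) : v ∈ ctr hF M := by
  have hn2 : ¬ (n = 3 ∧ q = 2) := fun h => hq2 h.2
  have hST := SUG_eq_TG hF hn hn2
  set N := M.subgroupOf (SUG n F q) with hNdef
  have hN : N.Normal := ⟨fun k hk g => by
    rw [hNdef, Subgroup.mem_subgroupOf] at hk ⊢
    exact hM _ (hST ▸ g.2) _ hk⟩
  obtain ⟨d, hd, hdq⟩ := hF.exists_skew
  -- a commutator of `f` with a transvection
  obtain ⟨w, hw, hw'⟩ : ∃ w, herm q w w = 0 ∧ ∀ c : F, f.1 w ≠ c • w := by
    by_contra hcon
    push Not at hcon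
    exact hfs (exists_scalar_of_fix_isotropic hF hn f hcon)
  have hw0 : w ≠ 0 := fun h => hw' 0 (by simp [h])
  have hu : herm q (f.1 w) (f.1 w) = 0 := by rw [UG_app]; exact hw
  have hc : TrvCond q w d := ⟨hw, hdq⟩
  have hc' : TrvCond q (f.1 w) d := ⟨hu, hdq⟩
  set t := trv hF hc with htdef
  set g : UG n F q := f * t * f⁻¹ * t⁻¹ with hgdef
  have hgM : g ∈ M := by
    have h1 := mul_mem hf (hM t (trv_mem hF hc) _ (inv_mem hf))
    rwa [show f * (t * f⁻¹ * t⁻¹) = g by rw [hgdef]; group] at h1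
  have hgS : g ∈ SUG n F q := by
    rw [hgdef, hST]
    exact mul_mem ((TG_normal).conj_mem _ (trv_mem hF hc) f) (inv_mem (trv_mem hF hc))
  have hgns : ¬ ∃ c : F, ∀ v, g.1 v = c • v := by
    rintro ⟨c, hc2⟩
    have h1 : f * t * f⁻¹ = g * t := by rw [hgdef]; group
    have h2 : ∀ x, x + (d * herm q x (f.1 w)) • f.1 w = c • (x + (d * herm q x w) • w) := by
      intro x
      have h3 := congrArg (fun k : UG n F q => k.1 x) h1
      simp only [Subgroup.coe_mul, LinearEquiv.mul_apply, htdef, trv_apply, hc2, map_add,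
        map_smul] at h3
      rw [← UG_app f ((f⁻¹ : UG n F q).1 x) w] at h3
      simpa using h3
    have hc1 : c = 1 := by
      by_cases hh : herm q w (f.1 w) = 0
      · have := h2 w
        simp only [hh, hw, mul_zero, zero_smul, add_zero] at this
        by_contra hne
        have h4 : (c - 1) • w = 0 := by rw [sub_smul, one_smul, ← this, sub_self]
        exact hw0 ((smul_eq_zero.1 h4).resolve_left (sub_ne_zero.2 hne))
      · exfalso
        have := h2 w
        rw [hw, mul_zero, zero_smul, add_zero] at this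
        refine hw' ((d * herm q w (f.1 w))⁻¹ * (c - 1)) ?_
        rw [mul_smul, sub_smul, one_smul, ← this, add_sub_cancel_left, smul_smul,
          inv_mul_cancel₀ (mul_ne_zero hd hh), one_smul]
    obtain ⟨x, hx⟩ : ∃ x, herm q x (f.1 w) ≠ 0 := by
      by_contra hcon
      push Not at hcon
      refine hw' 0 ?_
      rw [zero_smul]
      exact hF.eq_zero_of_herm _ fun v => by rw [← hF.herm_symm, hcon, zero_pow hF.q_ne_zero]
    have := h2 x
    rw [hc1, one_smul, add_right_inj] at this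
    refine hw' ((d * herm q x (f.1 w))⁻¹ * (d * herm q x w)) ?_
    rw [mul_smul, ← this, smul_smul, inv_mul_cancel₀ (mul_ne_zero hd hx), one_smul]
  have hsc : ∃ g ∈ N, ¬ ∃ c : F, ∀ v, g.1.1 v = c • v :=
    ⟨⟨g, hgS⟩, by rw [hNdef, Subgroup.mem_subgroupOf]; exact hgM, hgns⟩
  refine all_ctr_of_one hF hM (mem_ctr_of_one hF hq hc hd ?_) hw0 hv
  rcases eq_or_lt_of_le hn with rfl | hn3
  · obtain ⟨k, hk, he⟩ := trv_mem_of_normal_two hF hq (h5 rfl) N hN hsc hc
    rw [← he]; exact hk
  · have htop := normal_SUG_eq_top hF hn3 hn2 N hN hsc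
    have : (⟨t, TG_le_SUG hF (trv_mem hF hc)⟩ : SUG n F q) ∈ N := htop ▸ Subgroup.mem_top _
    exact this

end Cfsg.Agent.MaxSub.CSixU
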