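import Cfsg.Agent.MaxSub.CSix.Key

/-!
In dimension at least eight `Good` excludes controlled rotations: no field input is needed.
-/

set_option autoImplicit false

namespace Cfsg.Agent.MaxSub.CSixU

open CSix Module

variable {F : Type*} [Field F] {V : Type*} [AddCommGroup V] [Module F V]
  {i : F} {R G : Set (Module.End F V)}

theorem noControlled_of_eight [Nontrivial V] [FiniteDimensional F V]
    [Finite (Module.End F V)] (hD : Data i R)
    (hGood : Good R G) (hn : 8 ≤ finrank F V) : NoControlled i R G := by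
  intro x b c hxR hx hns hbR hcR hb hc hbc hxb hxc e heG he1 he2
  have h2 := hD.two_ne
  have hxv : ∀ v, x (x v) = v := fun v => by
    simpa using congrArg (fun g : Module.End F V => g v) hx
  have hbv : ∀ v, b (b v) = v := fun v => by
    simpa using congrArg (fun g : Module.End F V => g v) hb
  have hcv : ∀ v, c (c v) = v := fun v => by
    simpa using congrArg (fun g : Module.End F V => g v) hc
  have hbcv : ∀ v, b (c v) = -c (b v) := fun v => by
    simpa using congrArg (fun g : Module.End F V => g v) hbc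
  -- an involution `z` commuting with `x`, `b`, `c`, non-scalar on the fixed space of `x`
  have := nontrivial_eig hD hxR hx hns
  have hW := hD.res hxR hx
  have hW4 : 4 ≤ finrank F (Eig x) := by
    have := finrank_eig_of_mem hD hxR hx hns; omega
  set B := resEl x b hxb with hB
  set C := resEl x c hxc with hC
  have hBR : B ∈ Res x R := resEl_mem hbR hxb
  have hCR : C ∈ Res x R := resEl_mem hcR hxc
  have hBB : B * B = 1 := LinearMap.ext fun v => Subtype.ext (by simp [hB, hbv])
  have hBC : B * C = -(C * B) := LinearMap.ext fun v => Subtype.ext (by simp [hB, hC, hbcv])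
  have hBns : NS B := hW.ns_of_anticomm hCR hBR hBC
  obtain ⟨δ, hδR, hδns, hBδ, hCδ⟩ := hW.exists_comm_both hW4 hBR hBB hBns hCR
  obtain ⟨s, hs, hsm, hss⟩ := hW.exists_sq_one hδR
  have hzns' := hδns.smul hs
  set Z := s • δ with hZ
  have hBZ : B * Z = Z * B := by rw [hZ, mul_smul_comm, smul_mul_assoc, hBδ]
  have hCZ : C * Z = Z * C := by rw [hZ, mul_smul_comm, smul_mul_assoc, hCδ]
  obtain ⟨z, hzR, hxz, hzZ⟩ := hsm
  obtain ⟨w₁, hw₁⟩ := exists_ne (0 : Eig x)
  have hne : (w₁ : V) ≠ 0 := fun h => hw₁ (Subtype.ext h)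
  have hzz : z * z = 1 := (hD.sq_sign z hzR).resolve_right fun h => by
    have e1 := congrArg (fun g : Module.End F V => g w₁) h
    have e2 := congrArg (fun g : Module.End F (Eig x) => ((g w₁ : Eig x) : V)) hss
    simp only [Module.End.mul_apply, hzZ, LinearMap.neg_apply, Module.End.one_apply] at e1 e2
    rw [e2, eq_neg_iff_add_eq_zero, ← two_smul F] at e1
    exact hne ((smul_eq_zero.1 e1).resolve_left h2)
  have hcomm : ∀ r ∈ R, ∀ hr : x * r = r * x, resEl x r hr * Z = Z * resEl x r hr →
      z * r = r * z := by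
    intro r hrR hr h
    refine (hD.comm_sign z hzR r hrR).resolve_right fun h' => ?_
    have e1 := congrArg (fun g : Module.End F (Eig x) => ((g w₁ : Eig x) : V)) h
    have e2 := congrArg (fun g : Module.End F V => g w₁) h'
    simp only [Module.End.mul_apply, resEl_coe, hzZ, LinearMap.neg_apply] at e1 e2
    rw [← e1, eq_neg_iff_add_eq_zero, ← two_smul F] at e2
    have e3 := (smul_eq_zero.1 e2).resolve_left h2
    have hu := ((hD.isUnit hrR).mul (hD.isUnit hzR))
    obtain ⟨u, hu⟩ := hu
    refine hne ?_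
    have e4 : (w₁ : V) = ((↑u⁻¹ : Module.End F V) * (r * z)) w₁ := by
      rw [← hu, Units.inv_mul, Module.End.one_apply]
    rw [e4, Module.End.mul_apply, Module.End.mul_apply, e3, map_zero]
  have hzb : z * b = b * z := hcomm b hbR hxb hBZ
  have hzc : z * c = c * z := hcomm c hcR hxc hCZ
  have hzns : NS z := fun t ht => hzns' t (LinearMap.ext fun w => Subtype.ext (by
    rw [hzZ, ht]; simp))
  have hzxv : ∀ v, z (x v) = x (z v) := fun v => by
    simpa using congrArg (fun g : Module.End F V => g v) hxz.symm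
  -- an element anticommuting with `x` and commuting with `z`
  obtain ⟨a, haR, haa, hxa, hza⟩ :
      ∃ a ∈ R, a * a = 1 ∧ x * a = -(a * x) ∧ z * a = a * z := by
    suffices ∃ a ∈ R, x * a = -(a * x) ∧ z * a = a * z by
      obtain ⟨a, haR, h1, h3⟩ := this
      obtain ⟨d, hd, hdm, hdsq⟩ := hD.exists_sq_one haR
      exact ⟨d • a, hdm, hdsq, by rw [mul_smul_comm, h1, smul_mul_assoc, smul_neg],
        by rw [mul_smul_comm, h3, smul_mul_assoc]⟩
    obtain ⟨a, haR, -, hxa⟩ := hD.exists_anticomm hxR hns
    rcases hD.comm_sign z hzR a haR with h | h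
    · exact ⟨a, haR, hxa, h⟩
    obtain ⟨Q, hQ, -, hQZ⟩ := hW.exists_anticomm ⟨z, hzR, hxz, hzZ⟩ hzns'
    obtain ⟨q, hqR, hxq, hqQ⟩ := hQ
    have hzq : z * q = -(q * z) := (hD.comm_sign z hzR q hqR).resolve_left fun h' => by
      have e1 := congrArg (fun g : Module.End F (Eig x) => ((g w₁ : Eig x) : V)) hQZ
      have e2 := congrArg (fun g : Module.End F V => g w₁) h'
      simp only [Module.End.mul_apply, hzZ, hqQ, LinearMap.neg_apply, Submodule.coe_neg] at e1 e2
      rw [← e2, eq_neg_iff_add_eq_zero, ← two_smul F] at e1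
      have e3 := (smul_eq_zero.1 e1).resolve_left h2
      obtain ⟨u, hu⟩ := (hD.isUnit hzR).mul (hD.isUnit hqR)
      refine hne ?_
      have e4 : (w₁ : V) = ((↑u⁻¹ : Module.End F V) * (z * q)) w₁ := by
        rw [← hu, Units.inv_mul, Module.End.one_apply]
      rw [e4, Module.End.mul_apply, Module.End.mul_apply, e3, map_zero]
    refine ⟨a * q, hD.mul_mem _ haR _ hqR, ?_, ?_⟩
    · rw [← mul_assoc, hxa, neg_mul, mul_assoc a x q, hxq, mul_assoc]
    · rw [← mul_assoc, h, neg_mul, mul_assoc a z q, hzq, mul_neg, neg_neg, mul_assoc]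
  have hav : ∀ v, a (a v) = v := fun v => by
    simpa using congrArg (fun g : Module.End F V => g v) haa
  have hxav : ∀ v, x (a v) = -a (x v) := fun v => by
    simpa using congrArg (fun g : Module.End F V => g v) hxa
  have hzav : ∀ v, z (a v) = a (z v) := fun v => by
    simpa using congrArg (fun g : Module.End F V => g v) hza
  have hxbv : ∀ v, x (b v) = b (x v) := fun v => by
    simpa using congrArg (fun g : Module.End F V => g v) hxb
  have hxcv : ∀ v, x (c v) = c (x v) := fun v => by
    simpa using congrArg (fun g : Module.End F V => g v) hxc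
  have hzbv : ∀ v, z (b v) = b (z v) := fun v => by
    simpa using congrArg (fun g : Module.End F V => g v) hzb
  have hzcv : ∀ v, z (c v) = c (z v) := fun v => by
    simpa using congrArg (fun g : Module.End F V => g v) hzc
  set E := (2 : F)⁻¹ • ((1 + i • c) * (1 - i • b)) with hE
  set A := i • c - i • b + c * b with hA
  have hEA : ∀ v, (2 : F) • E v = v + A v := fun v => by
    rw [hE, LinearMap.smul_apply, smul_inv_smul₀ h2]
    simp only [hA, LinearMap.add_apply, LinearMap.sub_apply, LinearMap.smul_apply,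
      Module.End.mul_apply, Module.End.one_apply, map_sub, map_smul, smul_sub, smul_smul, hD.sq_i]
    match_scalars <;> first | ring1 | linear_combination -hD.sq_i
  have hEinv : ∀ v, x v = -v → z v = v → x (E v) = -E v ∧ z (E v) = E v := fun v h1 h3 => by
    constructor <;>
      · simp only [hE, LinearMap.smul_apply, Module.End.mul_apply, LinearMap.add_apply,
          LinearMap.sub_apply, Module.End.one_apply, map_add, map_sub, map_smul, hxbv, hxcv,
          hzbv, hzcv, h1, h3, map_neg]
        try module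
  -- `e` commutes with `z`
  have hsplit : ∀ v, v = (2 : F)⁻¹ • (v + x v) + (2 : F)⁻¹ • (v - x v) := fun v => by
    rw [← smul_add, show v + x v + (v - x v) = (2 : F) • v by module, inv_smul_smul₀ h2]
  have hneg : ∀ v, v ∈ Eig (-x) ↔ x v = -v := fun v => by
    rw [mem_eig, LinearMap.neg_apply, neg_eq_iff_eq_neg]
  have he2' : ∀ v, x v = -v → e v = E v := fun v hv => by
    rw [he2 v ((hneg v).2 hv), hE, LinearMap.smul_apply]
  have he1' : ∀ v, x v = v → e v = v := fun v hv => he1 v (mem_eig.2 hv)
  have hzE : ∀ v, z (E v) = E (z v) := fun v => by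
    simp only [hE, LinearMap.smul_apply, Module.End.mul_apply, LinearMap.add_apply,
      LinearMap.sub_apply, Module.End.one_apply, map_add, map_sub, map_smul, hzbv, hzcv]
  have hze : z * e = e * z := by
    refine eq_of_eig_eq h2 hx (fun v hv => ?_) fun v hv => ?_
    · rw [mem_eig] at hv
      rw [Module.End.mul_apply, Module.End.mul_apply, he1' v hv,
        he1' (z v) (by rw [← hzxv, hv])]
    · rw [hneg] at hv
      rw [Module.End.mul_apply, Module.End.mul_apply, he2' v hv,
        he2' (z v) (by rw [← hzxv, hv, map_neg]), hzE]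
  obtain ⟨r', ⟨r, hrR, hzr, hr'⟩, hr⟩ :=
    hGood z hzR hzz hzns _ (resEl_mem heG hze) _ (resEl_mem haR hza)
  have hr_ : ∀ v, z v = v → e (a v) = r (e v) := fun v hv => by
    have := congrArg (fun g : Module.End F (Eig z) => ((g ⟨v, mem_eig.2 hv⟩ : Eig z) : V)) hr
    simpa [hr'] using this
  -- a point moved by `x`
  obtain ⟨w, hw0, hxw, hzw⟩ : ∃ w, w ≠ 0 ∧ x w = -w ∧ z w = w := by
    have := nontrivial_eig hW (⟨z, hzR, hxz, hzZ⟩ : Z ∈ Res x R) hss hzns'
    obtain ⟨⟨u, hu⟩, hu0⟩ := exists_ne (0 : Eig Z)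
    refine ⟨a (u : V), fun h => hu0 (Subtype.ext (Subtype.ext ?_)), ?_, ?_⟩
    · have := congrArg a h
      rwa [hav, map_zero] at this
    · rw [hxav, mem_eig.1 u.2]
    · rw [hzav, ← hzZ, mem_eig.1 hu]
  have hrE : ∀ v, x v = -v → z v = v → r (E v) = a v := fun v h1 h3 => by
    rw [← he2' v h1, ← hr_ v h3, he1' (a v) (by rw [hxav, h1, map_neg, neg_neg])]
  have hrp : ∀ v, x v = v → z v = v → r v = E (a v) := fun v h1 h3 => by
    conv_lhs => rw [← he1' v h1]
    rw [← hr_ v h3, he2' (a v) (by rw [hxav, h1])]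
  have hrr : r * r = 1 := (hD.sq_sign r hrR).resolve_right fun h => by
    have h1 : x (a w) = a w := by rw [hxav, hxw, map_neg, neg_neg]
    have h3 : z (a w) = a w := by rw [hzav, hzw]
    have e1 := congrArg (fun g : Module.End F V => g (a w)) h
    simp only [Module.End.mul_apply, LinearMap.neg_apply, Module.End.one_apply] at e1
    rw [hrp _ h1 h3, hav, hrE w hxw hzw, eq_neg_iff_add_eq_zero, ← two_smul F] at e1
    exact hw0 (by rw [← hav w, (smul_eq_zero.1 e1).resolve_left h2, map_zero])
  -- so `E ^ 2` is a sign on the common eigenspace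
  obtain ⟨ε, hε, hE2⟩ : ∃ ε : F, (ε = 1 ∨ ε = -1) ∧
      ∀ v, x v = -v → z v = v → E (E v) = ε • v := by
    obtain ⟨ε, hε, hra⟩ : ∃ ε : F, (ε = 1 ∨ ε = -1) ∧ ∀ v, a (r v) = ε • r (a v) := by
      rcases hD.comm_sign a haR r hrR with h | h
      · exact ⟨1, Or.inl rfl, fun v => by
          simpa using congrArg (fun g : Module.End F V => g v) h⟩
      · exact ⟨-1, Or.inr rfl, fun v => by
          simpa using congrArg (fun g : Module.End F V => g v) h⟩
    refine ⟨ε, hε, fun v h1 h3 => ?_⟩
    obtain ⟨g1, g3⟩ := hEinv v h1 h3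
    have e1 : r (a v) = E v := by rw [hrp _ (by rw [hxav, h1, map_neg, neg_neg]) (by rw [hzav, h3]), hav]
    have e2 : r (a (E v)) = E (E v) := by
      rw [hrp _ (by rw [hxav, g1, map_neg, neg_neg]) (by rw [hzav, g3]), hav]
    calc E (E v) = r (a (r (a v))) := by rw [e1, e2]
      _ = ε • r (r (a (a v))) := by rw [hra, map_smul]
      _ = ε • v := by
        rw [hav, ← Module.End.mul_apply r r, hrr, Module.End.one_apply]
  have hAA : ∀ v, A (A v) = -(3 : F) • v := fun v => by
    have := congrArg (fun g : Module.End F V => g v)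
      (mul_self_sum_eq_neg_three hD hb hc hbc)
    simpa only [Module.End.mul_apply, LinearMap.smul_apply, Module.End.one_apply, ← hA] using this
  -- so `A` is scalar there
  set l : F := 2 * ε + 1 with hl
  have hAl : ∀ v, x v = -v → z v = v → A v = l • v := by
    intro v h1 h3
    have e1 : (2 : F) • (2 : F) • E (E v) = (v + A v) + A (v + A v) := by
      rw [hEA (E v), smul_add, ← map_smul A, hEA v]
    rw [hE2 v h1 h3, map_add, hAA] at e1
    refine smul_right_injective V h2 ?_
    show (2 : F) • A v = (2 : F) • l • v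
    rw [hl]
    linear_combination (norm := module) -e1
  have hbA : ∀ v, b (A v) + A (b v) = (-2 * i) • v := fun v => by
    simp only [hA, LinearMap.add_apply, LinearMap.sub_apply, LinearMap.smul_apply,
      Module.End.mul_apply, map_add, map_sub, map_smul, hbv, hbcv, map_neg]
    module
  have hU : x (b w) = -b w ∧ z (b w) = b w :=
    ⟨by rw [hxbv, hxw, map_neg], by rw [hzbv, hzw]⟩
  have hU' : x (c w) = -c w ∧ z (c w) = c w :=
    ⟨by rw [hxcv, hxw, map_neg], by rw [hzcv, hzw]⟩
  have key : ∀ v, x v = -v → z v = v → (2 * l) • b v = (-2 * i) • v := fun v h1 h3 => by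
    rw [← hbA v, hAl v h1 h3, hAl (b v) (by rw [hxbv, h1, map_neg]) (by rw [hzbv, h3]), map_smul,
      mul_smul, two_smul]
  have k1 := congrArg c (key w hxw hzw)
  have k2 := key (c w) hU'.1 hU'.2
  rw [map_smul, map_smul] at k1
  rw [hbcv, smul_neg, k1, neg_eq_iff_add_eq_zero, ← two_smul F, smul_smul] at k2
  have hne' : (2 : F) * (-2 * i) ≠ 0 := mul_ne_zero h2 (mul_ne_zero (neg_ne_zero.2 h2) hD.i_ne)
  exact hw0 (by rw [← hcv w, (smul_eq_zero.1 k2).resolve_left hne', map_zero])

end Cfsg.Agent.MaxSub.CSixU
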