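import Cfsg.Agent.MaxSub.CSixU.Block
import Cfsg.Agent.MaxSub.CSix.Key

/-!
Degree four over the field with nine elements: a controlled rotation is, up to a sign, a
transvection, and gives all transvections.
-/

set_option autoImplicit false
set_option linter.unusedSectionVars false

namespace Cfsg.Agent.MaxSub.CSixU

open Classical.U DecompMax.UN CSix Module

universe u

variable {F : Type u} [Field F] {q : ℕ} {i : F} {R G : Set (Module.End F (Fin 4 → F))}
  (hF : SqField F q)
include hF

theorem allTrv_of_controlled [Finite F] (hq : q.Prime) (hq4 : q % 4 = 3) (h3 : (3 : F) = 0)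
    (hD : Data i R) (hG : Grp i R G) (hR : Isom q R) (hU : Simil q G)
    {x b c : Module.End F (Fin 4 → F)} (hxR : x ∈ R) (hx : x * x = 1) (hns : NS x) (hbR : b ∈ R)
    (hcR : c ∈ R) (hb : b * b = 1) (hc : c * c = 1) (hbc : b * c = -(c * b))
    (hxb : x * b = b * x) (hxc : x * c = c * x) {e : Module.End F (Fin 4 → F)} (heG : e ∈ G)
    (he1 : ∀ v ∈ Eig x, e v = v)
    (he2 : ∀ v ∈ Eig (-x), e v = (2 : F)⁻¹ • ((1 + i • c) * (1 - i • b)) v) : AllTrv hF hG := by
  have h2 := hD.two_ne
  have hinv2 : (2 : F)⁻¹ = -1 := by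
    refine inv_eq_of_mul_eq_one_right ?_
    linear_combination -h3
  have hxv : ∀ v, x (x v) = v := fun v => by
    simpa using congrArg (fun g : Module.End F (Fin 4 → F) => g v) hx
  have hbv : ∀ v, b (b v) = v := fun v => by
    simpa using congrArg (fun g : Module.End F (Fin 4 → F) => g v) hb
  have hcv : ∀ v, c (c v) = v := fun v => by
    simpa using congrArg (fun g : Module.End F (Fin 4 → F) => g v) hc
  have hbcv : ∀ v, b (c v) = -c (b v) := fun v => by
    simpa using congrArg (fun g : Module.End F (Fin 4 → F) => g v) hbc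
  have hxbv : ∀ v, x (b v) = b (x v) := fun v => by
    simpa using congrArg (fun g : Module.End F (Fin 4 → F) => g v) hxb
  have hxcv : ∀ v, x (c v) = c (x v) := fun v => by
    simpa using congrArg (fun g : Module.End F (Fin 4 → F) => g v) hxc
  -- coordinates on both eigenspaces
  obtain ⟨a, haR, ha, hxa⟩ := hD.exists_anticomm hxR hns
  have hmR := hD.neg_mem hxR
  have hmns : NS (-x) := fun t ht => hns (-t) (LinearMap.ext fun v => by
    have := congrArg (fun g : Module.End F (Fin 4 → F) => -g v) ht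
    simpa using this)
  have hm2 : (-x) * (-x) = 1 := LinearMap.ext fun v => by simp [hxv]
  have hma : (-x) * a = -(a * -x) := LinearMap.ext fun v => by
    simpa using congrArg (fun g : Module.End F (Fin 4 → F) => -g v) hxa
  obtain ⟨m₀, j₀, hm₀, hj₀⟩ := exists_param hF hD hR hxR hx haR ha hxa
  obtain rfl : m₀ = 2 := by omega
  obtain ⟨m, j, hm, hj⟩ := exists_param hF hD hR hmR hm2 haR ha hma
  obtain rfl : m = 2 := by omega
  have hfr : finrank F (Eig (-x)) = 2 := by rw [← j.finrank_eq, Module.finrank_fin_fun]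
  have hneg : ∀ v, v ∈ Eig (-x) ↔ x v = -v := fun v => by
    rw [mem_eig, LinearMap.neg_apply, neg_eq_iff_eq_neg]
  have horth : ∀ u v, x u = u → x v = -v → herm q u v = 0 := fun u v hu hv => by
    have h := hR x hxR u v
    rw [hu, hv, hF.herm_neg_right] at h
    exact (mul_eq_zero.1 (show (2 : F) * herm q u v = 0 by linear_combination -h)).resolve_left h2
  have hsplit : ∀ v, ∃ p u, x p = p ∧ x u = -u ∧ v = p + u := fun v =>
    ⟨(2 : F)⁻¹ • (v + x v), (2 : F)⁻¹ • (v - x v), by rw [map_smul, map_add, hxv, add_comm],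
      by rw [map_smul, map_sub, hxv, ← smul_neg, neg_sub], by
        rw [← smul_add, show v + x v + (v - x v) = (2 : F) • v by module, inv_smul_smul₀ h2]⟩
  -- the isometry `e' = x e`
  set u₀ : Fin 2 → F := Pi.single 0 1 with hu₀
  have hu₀n : herm q u₀ u₀ = 1 := by
    rw [hu₀, herm_single_one _ hF.q_ne_zero]; simp
  have hiso := simil_const hF (by norm_num) hU heG (u := (j₀ u₀ : Fin 4 → F))
    (by rw [hj₀, hu₀n]; exact one_ne_zero) (by rw [he1 _ (j₀ u₀).2])
  obtain ⟨k, hk, hke⟩ := exists_mem_isoSub hF hG (hG.mul_mem _ (hG.sub hxR) _ heG)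
    (fun u v => by rw [Module.End.mul_apply, Module.End.mul_apply, hR x hxR, hiso])
  set A := i • c - i • b + c * b with hA
  have hkp : ∀ v, x v = v → k.1 v = v := fun v hv => by
    rw [hke, Module.End.mul_apply, he1 v (mem_eig.2 hv), hv]
  have hkm : ∀ v, x v = -v → k.1 v = v + A v := fun v hv => by
    rw [hke, Module.End.mul_apply, he2 v ((hneg v).2 hv), hinv2]
    simp only [hA, LinearMap.add_apply, LinearMap.sub_apply, LinearMap.smul_apply,
      Module.End.mul_apply, Module.End.one_apply, map_add, map_sub, map_smul, map_neg, hxbv,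
      hxcv, hv, smul_sub, smul_add, smul_neg, neg_smul, one_smul, smul_smul, hD.sq_i]
    match_scalars <;> first | ring1 | linear_combination -hD.sq_i | linear_combination hD.sq_i
  have hAinv : ∀ v, x v = -v → x (A v) = -A v := fun v hv => by
    simp only [hA, LinearMap.add_apply, LinearMap.sub_apply, LinearMap.smul_apply,
      Module.End.mul_apply, map_add, map_sub, map_smul, hxbv, hxcv, hv, map_neg]
    module
  have hAA : ∀ v, A (A v) = 0 := fun v => by
    have := congrArg (fun g : Module.End F (Fin 4 → F) => g v)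
      (mul_self_sum_eq_neg_three hD hb hc hbc)
    rw [← hA, h3, neg_zero, zero_smul] at this
    simpa only [Module.End.mul_apply, LinearMap.zero_apply] using this
  have hbA : ∀ v, b (A v) + A (b v) = (-2 * i) • v := fun v => by
    simp only [hA, LinearMap.add_apply, LinearMap.sub_apply, LinearMap.smul_apply,
      Module.End.mul_apply, map_add, map_sub, map_smul, hbv, hbcv, map_neg]
    module
  -- the centre
  obtain ⟨w₀, hw₀, hw₀A⟩ : ∃ w₀, x w₀ = -w₀ ∧ A w₀ ≠ 0 := by
    by_contra hcon
    push Not at hcon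
    have hv : x (j u₀ : Fin 4 → F) = -(j u₀ : Fin 4 → F) := (hneg _).1 (j u₀).2
    have h := hbA (j u₀ : Fin 4 → F)
    rw [hcon _ hv, hcon _ (by rw [hxbv, hv, map_neg]), map_zero, add_zero, eq_comm] at h
    have := (smul_eq_zero.1 h).resolve_left (mul_ne_zero (neg_ne_zero.2 h2) hD.i_ne)
    have h' := hj u₀ u₀
    rw [this, hu₀n, herm_zero_left] at h'
    exact zero_ne_one h'
  set w := A w₀ with hwdef
  have hxw : x w = -w := hAinv w₀ hw₀
  have hAw : A w = 0 := hAA w₀
  have hI : ∀ u v, x u = -u → x v = -v →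
      herm q (A u) v + herm q u (A v) + herm q (A u) (A v) = 0 := by
    intro u v hu hv
    have h := UG_app k u v
    rw [hkm u hu, hkm v hv, herm_add_left, hF.herm_add_right, hF.herm_add_right] at h
    linear_combination h
  have hww : herm q w w = 0 := by
    have := hI w₀ w hw₀ hxw
    rwa [hAw, hF.herm_zero_right, hF.herm_zero_right, add_zero, add_zero, ← hwdef] at this
  have hwne : w ≠ 0 := hw₀A
  have hindep : LinearIndependent F
      ![(⟨w, (hneg w).2 hxw⟩ : Eig (-x)), ⟨w₀, (hneg w₀).2 hw₀⟩] := by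
    refine LinearIndependent.pair_iff.2 fun s t hst => ?_
    have h1 : s • w + t • w₀ = 0 := by simpa using congrArg Subtype.val hst
    have h4 := congrArg A h1
    rw [map_add, map_smul, map_smul, hAw, smul_zero, zero_add, map_zero, ← hwdef] at h4
    have ht := (smul_eq_zero.1 h4).resolve_right hwne
    rw [ht, zero_smul, add_zero] at h1
    exact ⟨(smul_eq_zero.1 h1).resolve_right hwne, ht⟩
  have hspan : ∀ v, x v = -v → ∃ s t : F, v = s • w + t • w₀ := by
    intro v hv
    let B := basisOfLinearIndependentOfCardEqFinrank hindep (by rw [Fintype.card_fin, hfr])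
    have h := B.sum_repr ⟨v, (hneg v).2 hv⟩
    rw [Fin.sum_univ_two, coe_basisOfLinearIndependentOfCardEqFinrank] at h
    exact ⟨_, _, by simpa using (congrArg Subtype.val h).symm⟩
  set h₀ := herm q w₀ w with hh₀
  have hh₀ne : h₀ ≠ 0 := by
    intro h
    refine hwne (hF.eq_zero_of_herm w fun v => ?_)
    obtain ⟨p, u, hp, hu, rfl⟩ := hsplit v
    obtain ⟨s, t, rfl⟩ := hspan u hu
    rw [hF.herm_add_right, hF.herm_add_right, herm_smul_right, herm_smul_right, hww,
      ← hF.herm_symm w₀ w, ← hh₀, h, zero_pow hF.q_ne_zero, ← hF.herm_symm p w,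
      horth p w hp hxw, zero_pow hF.q_ne_zero]
    ring
  have hskew : (h₀⁻¹) ^ q = -h₀⁻¹ := by
    have := hI w₀ w₀ hw₀ hw₀
    rw [← hwdef, hww, add_zero, ← hF.herm_symm w₀ w, ← hh₀] at this
    rw [inv_pow, ← inv_neg]
    congr 1
    linear_combination this
  have hwctr : w ∈ ctr hF (isoSub q hG) := by
    have hcond : TrvCond q w h₀⁻¹ := ⟨hww, hskew⟩
    refine mem_ctr_of_one hF hq (h := hcond) (inv_ne_zero hh₀ne) ?_
    convert hk using 1
    refine Subtype.ext (LinearEquiv.ext fun v => ?_)
    obtain ⟨p, u, hp, hu, rfl⟩ := hsplit v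
    obtain ⟨s, t, rfl⟩ := hspan u hu
    rw [trv_apply hF hcond, map_add k.1, hkp p hp, hkm _ hu, herm_add_left, horth p w hp hxw,
      herm_add_left, herm_smul_left, herm_smul_left, hww, ← hh₀, map_add, map_smul A, map_smul A,
      hAw, ← hwdef]
    match_scalars <;> field_simp <;> ring
  -- a second centre
  have hmap : ∀ r, r ∈ R → r w ∈ ctr hF (isoSub q hG) := fun r hr => by
    obtain ⟨k', hk', hkr⟩ := exists_mem_isoSub hF hG (hG.sub hr) (hR r hr)
    have := ctr_map hF hwctr hk'
    rwa [hkr] at this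
  obtain ⟨w', hw', hxw', hne⟩ :
      ∃ w', w' ∈ ctr hF (isoSub q hG) ∧ x w' = -w' ∧ herm q w w' ≠ 0 := by
    by_contra hcon
    push Not at hcon
    have hlin : ∀ r : Module.End F (Fin 4 → F), x (r w) = -r w → r w ∈ ctr hF (isoSub q hG) →
        ∃ s : F, r w = s • w := by
      intro r hr hrc
      obtain ⟨s, t, hst⟩ := hspan (r w) hr
      have h := hcon _ hrc hr
      rw [hst, hF.herm_add_right, herm_smul_right, herm_smul_right, hww, mul_zero, zero_add,
        ← hF.herm_symm w₀ w, ← hh₀, ← mul_pow] at h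
      have := (mul_eq_zero.1 ((pow_eq_zero_iff hF.q_ne_zero).1 h)).resolve_right hh₀ne
      exact ⟨s, by rw [hst, this, zero_smul, add_zero]⟩
    obtain ⟨s, hs⟩ := hlin b (by rw [hxbv, hxw, map_neg]) (hmap b hbR)
    obtain ⟨t, ht⟩ := hlin c (by rw [hxcv, hxw, map_neg]) (hmap c hcR)
    have h := hbcv w
    rw [ht, hs, map_smul, map_smul, hs, ht, smul_smul, smul_smul, mul_comm t s,
      eq_neg_iff_add_eq_zero, ← two_smul F, smul_smul] at h
    rcases mul_eq_zero.1 ((smul_eq_zero.1 h).resolve_right hwne) with h' | h'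
    · exact h2 h'
    rcases mul_eq_zero.1 h' with rfl | rfl
    · rw [zero_smul] at hs; exact hwne (by rw [← hbv w, hs, map_zero])
    · rw [zero_smul] at ht; exact hwne (by rw [← hcv w, ht, map_zero])
  refine allTrv_of_source hF hq hq4 hD hG hR hU le_rfl rfl hmR hm2 hmns j hj (Or.inr ?_)
  intro v hv
  have hv' : x (j v : Fin 4 → F) = -(j v : Fin 4 → F) := (hneg _).1 (j v).2
  obtain ⟨s, t, hst⟩ := hspan _ hv'
  obtain ⟨s', t', hst'⟩ := hspan w' hxw'
  have ht' : t' ≠ 0 := by
    rintro rfl
    rw [hst', zero_smul, add_zero, herm_smul_right, hww, mul_zero] at hne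
    exact hne rfl
  have he : (j v : Fin 4 → F) = (s - t / t' * s') • w + (t / t') • w' := by
    rw [hst, hst']
    match_scalars <;> field_simp <;> ring
  rw [he]
  refine ctr_line hF hwctr hw' hne ?_
  rw [← he, hj, hv]

end Cfsg.Agent.MaxSub.CSixU
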