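import Cfsg.Agent.MaxSub.CSix.Two
import Cfsg.Agent.Classical.UTrans

/-!
The unitary two dimensional base case: a group of similitudes of the plane with `R` and its quarter
turns normalises `R` or contains every transvection.
-/

set_option autoImplicit false
set_option linter.unusedSectionVars false

open scoped MatrixGroups OnePoint

namespace Cfsg.Agent.MaxSub.CSixU

open Cfsg.Agent.Classical.U Cfsg.Agent.MaxSub.Dickson Matrix

variable {F : Type*} [Field F] {q : ℕ}

lemma charP_of_prime (hF : SqField F q) (hq : q.Prime) : CharP F q := by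
  obtain ⟨p, k, hp, hc, hk⟩ := hF.exists_char
  have hd : p ∣ q := by
    rw [hk]
    refine dvd_pow_self p ?_
    rintro rfl
    rw [pow_zero] at hk
    exact hq.ne_one hk
  exact (Nat.prime_dvd_prime_iff_eq hp hq).1 hd ▸ hc

/-- The similitudes in coordinates. -/
def simGroup (hF : SqField F q) (b : Module.Basis (Fin 2) F (Fin 2 → F)) :
    Subgroup (GL (Fin 2) F) where
  carrier := {g | ∃ c : F, c ≠ 0 ∧ ∀ u v, herm q (Matrix.toLinAlgEquiv b g.val u)
    (Matrix.toLinAlgEquiv b g.val v) = c * herm q u v}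
  one_mem' := ⟨1, one_ne_zero, fun u v => by simp⟩
  mul_mem' := fun {g g'} ⟨c, hc, h⟩ ⟨c', hc', h'⟩ => ⟨c * c', mul_ne_zero hc hc', fun u v => by
    rw [Units.val_mul, map_mul, Module.End.mul_apply, Module.End.mul_apply, h, h', mul_assoc]⟩
  inv_mem' := fun {g} ⟨c, hc, h⟩ => ⟨c⁻¹, inv_ne_zero hc, fun u v => by
    have e : ∀ w, Matrix.toLinAlgEquiv b g.val (Matrix.toLinAlgEquiv b (g⁻¹).val w) = w := fun w => by
      rw [← Module.End.mul_apply, ← map_mul, Units.mul_inv, map_one, Module.End.one_apply]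
    rw [eq_inv_mul_iff_mul_eq₀ hc, ← h, e, e]⟩

/-- The entries of a similitude in an orthogonal basis. -/
lemma sim_entries (hF : SqField F q) {b : Module.Basis (Fin 2) F (Fin 2 → F)} {k : F} (hk : k ≠ 0)
    (h00 : herm q (b 0) (b 0) = k) (h11 : herm q (b 1) (b 1) = k) (h01 : herm q (b 0) (b 1) = 0)
    {g : GL (Fin 2) F} (hg : g ∈ simGroup hF b) :
    ∃ c : F, c ≠ 0 ∧ g.val 0 0 * g.val 0 0 ^ q + g.val 1 0 * g.val 1 0 ^ q = c ∧
      g.val 0 1 * g.val 0 1 ^ q + g.val 1 1 * g.val 1 1 ^ q = c ∧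
      g.val 0 0 * g.val 0 1 ^ q + g.val 1 0 * g.val 1 1 ^ q = 0 := by
  obtain ⟨c, hc, h⟩ := hg
  have h10 : herm q (b 1) (b 0) = 0 := by rw [← hF.herm_symm, h01, zero_pow hF.q_ne_zero]
  have e : ∀ m n : Fin 2, herm q (Matrix.toLinAlgEquiv b g.val (b m)) (Matrix.toLinAlgEquiv b g.val (b n))
      = k * (g.val 0 m * g.val 0 n ^ q + g.val 1 m * g.val 1 n ^ q) := fun m n => by
    simp only [Matrix.toLinAlgEquiv_self, Fin.sum_univ_two, herm_add_left, hF.herm_add_right,
      herm_smul_left, herm_smul_right, h00, h11, h01, h10]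
    ring
  refine ⟨c, hc, mul_left_cancel₀ hk ?_, mul_left_cancel₀ hk ?_, mul_left_cancel₀ hk ?_⟩
  · rw [← e, h, h00, mul_comm]
  · rw [← e, h, h11, mul_comm]
  · rw [← e, h, h01, mul_zero, mul_zero]

/-- The projective similitude group of the plane is small. -/
lemma card_proj_sim_le [Fintype F] [DecidableEq F] (hF : SqField F q)
    {b : Module.Basis (Fin 2) F (Fin 2 → F)} {k : F} (hk : k ≠ 0)
    (h00 : herm q (b 0) (b 0) = k) (h11 : herm q (b 1) (b 1) = k) (h01 : herm q (b 0) (b 1) = 0) :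
    Nat.card ((simGroup hF b).map ProjGenLinGroup.mk) ≤ (q ^ 2 + 1) * (q + 1) := by
  classical
  set P := (simGroup hF b).map ProjGenLinGroup.mk with hP
  rw [← card_orbit_mul (G := P) (∞ : OnePoint F)]
  have : Finite (OnePoint F) := inferInstanceAs (Finite (Option F))
  refine Nat.mul_le_mul ?_ ?_
  · refine (Set.ncard_le_card _).trans (le_of_eq ?_)
    rw [show Nat.card (OnePoint F) = Nat.card (Option F) from rfl, Finite.card_option, hF.2]
  · rw [← hF.card_norm_one]
    have key : ∀ x : MulAction.stabilizer P (∞ : OnePoint F), ∃ (μ : F) (g : GL (Fin 2) F),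
        μ ^ (q + 1) = 1 ∧ (x.1 : PGL(2, F)) = ProjGenLinGroup.mk g ∧ g.val 0 1 = 0 ∧
          g.val 1 0 = 0 ∧ g.val 0 0 ≠ 0 ∧ g.val 1 1 = μ * g.val 0 0 := by
      rintro ⟨⟨_, g, hg, rfl⟩, hx⟩
      obtain ⟨c, hc, e0, e1, e2⟩ := sim_entries hF hk h00 h11 h01 hg
      have h' : ProjGenLinGroup.mk g • (∞ : OnePoint F) = ∞ := hx
      rw [mk_smul, OnePoint.smul_infty_eq_self_iff] at h'
      have hdet := g.det_ne_zero
      rw [Matrix.det_fin_two, h', mul_zero, sub_zero] at hdet
      have ha := left_ne_zero_of_mul hdet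
      rw [h', zero_mul, add_zero] at e2
      have hb : g.val 0 1 = 0 := (pow_eq_zero_iff hF.q_ne_zero).1 ((mul_eq_zero.1 e2).resolve_left ha)
      refine ⟨g.val 1 1 / g.val 0 0, g, ?_, rfl, hb, h', ha, by field_simp⟩
      rw [hb, zero_mul, zero_add] at e1
      rw [h', zero_mul, add_zero] at e0
      rw [div_pow, pow_succ', pow_succ', e1, e0, div_self hc]
    choose μ g hμ hxg hg01 hg10 hg00 hg11 using key
    refine Nat.card_le_card_of_injective (fun x => (⟨μ x, hμ x⟩ : {z : F // z ^ (q + 1) = 1}))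
      fun x y h => ?_
    have h' : μ x = μ y := congrArg Subtype.val h
    refine Subtype.ext (Subtype.ext ?_)
    rw [hxg, hxg, ProjGenLinGroup.mk_eq_mk_iff]
    refine ⟨Units.mk0 ((g y).val 0 0 / (g x).val 0 0) (div_ne_zero (hg00 y) (hg00 x)), Units.ext ?_⟩
    rw [CSix.coe_mul_scalar, Units.val_mk0]
    have := hg00 x
    ext m n
    fin_cases m <;> fin_cases n <;> simp [hg01, hg10, hg11, h'] <;> field_simp

lemma trv_pow_apply (hF : SqField F q) {e : Fin 2 → F} {a : F} (h : TrvCond q e a) (n : ℕ)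
    (w : Fin 2 → F) :
    (((trv hF h).1 : (Fin 2 → F) →ₗ[F] (Fin 2 → F)) ^ n) w
      = w + ((n : F) * a * herm q w e) • e := by
  induction n with
  | zero => simp
  | succ n ih =>
    rw [pow_succ', Module.End.mul_apply, ih, LinearEquiv.coe_coe, trv_apply, herm_add_left,
      herm_smul_left, h.1, mul_zero, add_zero]
    push_cast
    module

/-- The unitary base case in dimension two, with the bound on `q`. -/
theorem normalises_or_trv_of_two_of_seven (hF : SqField F q) (hq : q.Prime) (hq4 : q % 4 = 3) {i : F}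
    {R G : Set (Module.End F (Fin 2 → F))} (hD : CSix.Data i R) (hG : CSix.Grp i R G)
    (hR : ∀ r ∈ R, ∀ u v, herm q (r u) (r v) = herm q u v)
    (hU : ∀ g ∈ G, ∃ c : F, ∀ u v, herm q (g u) (g v) = c * herm q u v) :
    (∀ g ∈ G, CSix.Nrm R g) ∨ 7 ≤ q ∧
      ∀ (e : Fin 2 → F) (a : F) (h : TrvCond q e a),
        ((trv hF h).1 : (Fin 2 → F) →ₗ[F] (Fin 2 → F)) ∈ G := by
  classical
  have := hF.1
  have : Fintype F := Fintype.ofFinite F
  have hqF : Fintype.card F = q ^ 2 := by rw [← Nat.card_eq_fintype_card, hF.2]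
  have hchar := charP_of_prime hF hq
  have : Fact q.Prime := ⟨hq⟩
  have hfr : Module.finrank F (Fin 2 → F) = 2 := by simp
  obtain ⟨b, hxR, haR⟩ := CSix.exists_coords hD hfr
  set Φ := Matrix.toLinAlgEquiv b with hΦ
  set x := Φ (!![1, 0; 0, -1] : Matrix (Fin 2) (Fin 2) F) with hx
  set y := Φ (!![0, 1; 1, 0] : Matrix (Fin 2) (Fin 2) F) with hy
  have x0 : x (b 0) = b 0 := by rw [hx, hΦ, Matrix.toLinAlgEquiv_self]; simp
  have x1 : x (b 1) = -b 1 := by rw [hx, hΦ, Matrix.toLinAlgEquiv_self]; simp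
  have y0 : y (b 0) = b 1 := by rw [hy, hΦ, Matrix.toLinAlgEquiv_self]; simp
  -- the form in this basis
  have h01 : herm q (b 0) (b 1) = 0 := by
    have h := hR x hxR (b 0) (b 1)
    rw [x0, x1, hF.herm_neg_right] at h
    exact (mul_eq_zero.1 (show 2 * herm q (b 0) (b 1) = 0 by linear_combination -h)).resolve_left
      hD.two_ne
  set k := herm q (b 0) (b 0) with h00
  have h11 : herm q (b 1) (b 1) = k := by rw [← y0]; exact hR y haR _ _
  have hk : k ≠ 0 := by
    intro h0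
    refine b.ne_zero 0 (hF.eq_zero_of_herm _ fun w => ?_)
    rw [← b.sum_repr w, Fin.sum_univ_two, hF.herm_add_right, herm_smul_right, herm_smul_right,
      ← h00, h0, h01, mul_zero, mul_zero, add_zero]
  obtain ⟨H, hH, hscal, T, hTH, W, hWH, hT, hW⟩ := CSix.exists_coordGroup hD hG b hxR haR
  have hHS : H ≤ simGroup hF b := by
    intro g hg
    obtain ⟨c, hc⟩ := hU _ ((hH g).1 hg)
    refine ⟨c, fun h0 => ?_, hc⟩
    have e : Φ g.val (Φ (g⁻¹).val (b 0)) = b 0 := by
      rw [← Module.End.mul_apply, ← map_mul, Units.mul_inv, map_one, Module.End.one_apply]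
    refine hk ?_
    have h' := hc (Φ (g⁻¹).val (b 0)) (Φ (g⁻¹).val (b 0))
    rw [e, h0, zero_mul] at h'
    exact h'
  have hi0 := hD.i_ne
  obtain ⟨hTord, hcase⟩ := CSix.classify_quarter hD.sq_i hD.two_ne H hscal hTH hWH hT hW
    one_ne_zero hi0 hi0 (fun h => mul_ne_zero hD.two_ne hi0 (by linear_combination h))
  rcases hcase with ⟨F₀, h, h4, he⟩ | ⟨⟨e⟩⟩
  swap
  · exact Or.inl (CSix.nrm_of_matrices hD hG b hxR haR hH
      (CSix.normalises_of_perm_four hD.sq_i hD.two_ne H hTH hWH hT hW hTord e))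
  right
  -- the subfield is the prime one
  obtain ⟨r, -, hr⟩ := card_subfield_pow F₀
  have hF₀ : Nat.card F₀ = q := by
    have hd : Nat.card F₀ ∣ q ^ 2 := hqF ▸ hr ▸ dvd_pow_self _ (by
      rintro rfl
      rw [pow_zero, hqF] at hr
      have := hq.two_le
      nlinarith)
    obtain ⟨j, hj, hj'⟩ := (Nat.dvd_prime_pow hq).1 hd
    rcases (show j = 0 ∨ j = 1 ∨ j = 2 by omega) with rfl | rfl | rfl
    · rw [pow_zero] at hj'; omega
    · rw [hj', pow_one]
    · exfalso
      have htop : F₀ = ⊤ := (subfield_eq_top_iff F₀).2 (hj'.trans hqF.symm)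
      have hm := hHS (CSix.sl_of_top hscal htop he
        (GeneralLinearGroup.mkOfDetNeZero !![1, 1; 0, 1] (by simp [Matrix.det_fin_two]))
        (by simp [GeneralLinearGroup.mkOfDetNeZero, Matrix.det_fin_two]))
      obtain ⟨c, -, -, -, e2⟩ := sim_entries hF hk h00.symm h11 h01 hm
      simp [GeneralLinearGroup.mkOfDetNeZero, hF.q_ne_zero] at e2
  have hq7 : 7 ≤ q := by omega
  set P := (simGroup hF b).map ProjGenLinGroup.mk with hP
  set H' := H.map (ProjGenLinGroup.mk (n := Fin 2) (R := F)) with hH'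
  have hle : H' ≤ P := Subgroup.map_mono hHS
  have hbig : q * (q - 1) * (q + 1) ≤ 2 * Nat.card H' := by
    rw [Nat.card_congr (H'.equivMapOfInjective (MulAut.conj h⁻¹).toMonoidHom
      (MulAut.conj h⁻¹).injective).toEquiv]
    have c1 := card_subPSL_range F₀
    rw [hF₀, Nat.gcd_eq_left (show 2 ∣ q - 1 by omega)] at c1
    rcases he with he | he <;> rw [he]
    · rw [card_subPGL_range, hF₀]; omega
    · rw [c1]
  have hidx : (H'.subgroupOf P).index ≤ 2 := by
    have hm := (H'.subgroupOf P).card_mul_index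
    rw [Nat.card_congr (Subgroup.subgroupOfEquivOfLe hle).toEquiv] at hm
    have hub := card_proj_sim_le hF hk h00.symm h11 h01
    rw [← hP, ← hm] at hub
    by_contra hcon
    have h3 : Nat.card H' * 3 ≤ Nat.card H' * (H'.subgroupOf P).index :=
      Nat.mul_le_mul_left _ (by omega)
    obtain ⟨m, rfl⟩ : ∃ m, q = m + 7 := ⟨q - 7, by omega⟩
    rw [show m + 7 - 1 = m + 6 by omega] at hbig
    nlinarith
  refine ⟨hq7, ?_⟩
  intro e₀ a htr
  set t : (Fin 2 → F) →ₗ[F] (Fin 2 → F) := ((trv hF htr).1 : (Fin 2 → F) →ₗ[F] (Fin 2 → F)) with ht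
  have htq : t ^ q = 1 := LinearMap.ext fun w => by
    rw [ht, trv_pow_apply hF htr, CharP.cast_eq_zero, zero_mul, zero_mul, zero_smul, add_zero,
      Module.End.one_apply]
  obtain ⟨M, hM⟩ := Φ.surjective t
  have hMq : M ^ q = 1 := Φ.injective (by rw [map_pow, hM, htq, map_one])
  have hMu : IsUnit M := IsUnit.of_pow_eq_one hMq hF.q_ne_zero
  obtain ⟨g, rfl⟩ := hMu
  have hgP : ProjGenLinGroup.mk g ∈ P := ⟨g, ⟨1, one_ne_zero, fun u v => by
    rw [one_mul, hM]; exact (trv hF htr).2 u v⟩, rfl⟩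
  have hgq : (⟨_, hgP⟩ : P) ^ q = 1 := Subtype.ext (by
    show ProjGenLinGroup.mk g ^ q = 1
    rw [← map_pow, show g ^ q = 1 from Units.ext (by rw [Units.val_pow_eq_pow_val]; exact hMq),
      map_one])
  have hgH : (⟨_, hgP⟩ : P) ∈ H'.subgroupOf P := by
    rcases Nat.lt_or_ge (H'.subgroupOf P).index 2 with h1 | h2
    · have h0 := (H'.subgroupOf P).index_ne_zero_of_finite
      rw [Subgroup.index_eq_one.1 (by omega : (H'.subgroupOf P).index = 1)]
      trivial
    · have hsq := Subgroup.mul_self_mem_of_index_two (show (H'.subgroupOf P).index = 2 by omega)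
        (⟨_, hgP⟩ : P)
      have := Subgroup.pow_mem _ hsq ((q + 1) / 2)
      rwa [← pow_two, ← pow_mul, show 2 * ((q + 1) / 2) = q + 1 by omega, pow_succ, hgq, one_mul] at this
  have := (hH g).1 (CSix.mem_of_mk_mem hscal hgH)
  rwa [hM] at this

/-- The unitary base case in dimension two. -/
theorem normalises_or_trv_of_two (hF : SqField F q) (hq : q.Prime) (hq4 : q % 4 = 3) {i : F}
    {R G : Set (Module.End F (Fin 2 → F))} (hD : CSix.Data i R) (hG : CSix.Grp i R G)
    (hR : ∀ r ∈ R, ∀ u v, herm q (r u) (r v) = herm q u v)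
    (hU : ∀ g ∈ G, ∃ c : F, ∀ u v, herm q (g u) (g v) = c * herm q u v) :
    (∀ g ∈ G, CSix.Nrm R g) ∨
      ∀ (e : Fin 2 → F) (a : F) (h : TrvCond q e a),
        ((trv hF h).1 : (Fin 2 → F) →ₗ[F] (Fin 2 → F)) ∈ G :=
  (normalises_or_trv_of_two_of_seven hF hq hq4 hD hG hR hU).imp_right And.right

end Cfsg.Agent.MaxSub.CSixU
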