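import Cfsg.Agent.MaxSub.CSixU.Wiring
import Cfsg.Agent.MaxSub.CSixU.Two
import Cfsg.Agent.MaxSub.CSixU.Big
import Cfsg.Agent.MaxSub.CSixU.Plane
import Cfsg.Agent.MaxSub.CSix.Two

/-!
The dichotomy "normalises `R` or contains all transvections" in degrees two, four and eight, and
the maximality of the symplectic-type normaliser in `SU_8(p)`.
-/

set_option autoImplicit false
set_option linter.unusedSectionVars false

namespace Cfsg.Agent.MaxSub.CSixU

open Classical.U DecompMax.UN CSix Module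
open scoped MatrixGroups

universe u

instance finite_end {F : Type u} [Field F] [Finite F] {n : ℕ} :
    Finite (Module.End F (Fin n → F)) :=
  Finite.of_injective (fun f : Module.End F (Fin n → F) => (f : (Fin n → F) → (Fin n → F)))
    DFunLike.coe_injective

variable {F : Type u} [Field F] {n q : ℕ} (hF : SqField F q)
include hF

theorem antidiag_of_sqField [Fintype F] {i : F} (hi : i * i = -1) (h2 : (2 : F) ≠ 0)
    (h3 : (3 : F) ≠ 0) : Antidiag i := by
  intro H hs hT hD
  have hi0 : i ≠ 0 := fun h => by simp [h] at hi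
  let T : GL (Fin 2) F := Matrix.GeneralLinearGroup.mkOfDetNeZero !![1, 0; 0, i]
    (by simp [Matrix.det_fin_two, hi0])
  let D : GL (Fin 2) F := Matrix.GeneralLinearGroup.mkOfDetNeZero !![1, 3; -1, 1] (by
    rw [Matrix.det_fin_two]
    simp only [Matrix.of_apply, Matrix.cons_val', Matrix.cons_val_zero, Matrix.cons_val_one,
      Matrix.empty_val', Matrix.cons_val_fin_one]
    intro h
    exact mul_ne_zero h2 h2 (by linear_combination h))
  refine exists_antidiag hi h2 h3 H (fun u => hs _ ⟨(u : F), ?_⟩) (hT T rfl) (hD D rfl) rfl rfl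
  ext a b
  by_cases h : a = b <;> simp [h, Matrix.one_apply]

/-- The first case of the dichotomy, from `Fix`. -/
theorem dichotomy_step [Finite F] (hq : q.Prime) (hq4 : q % 4 = 3) {m : ℕ} (hm : 2 ≤ m)
    (hn : n = 2 * m) {i : F} {R G : Set (Module.End F (Fin n → F))} (hD : Data i R)
    (hG : Grp i R G) (hR : Isom q R) (hU : Simil q G)
    (IH : ∀ (R' G' : Set (Module.End F (Fin m → F))), Data i R' → ∀ hG' : Grp i R' G',
      Isom q R' → Simil q G' →
      (∀ g ∈ G', Nrm R' g) ∨ ((m = 2 → 5 ≤ q) ∧ AllTrv hF hG'))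
    (hfix : Good R G → ¬ AllTrv hF hG → Fix i R G) :
    (∀ g ∈ G, Nrm R g) ∨ AllTrv hF hG := by
  haveI : Nonempty (Fin n) := ⟨⟨0, by omega⟩⟩
  by_cases hall : AllTrv hF hG
  · exact Or.inr hall
  refine Or.inl fun g hg => CSix.normalises hD hG (hfix ?_ hall) ?_ hg
  swap
  · rw [Module.finrank_fin_fun]; omega
  intro x hxR hx hns φ hφ
  obtain ⟨a, haR, ha, hxa⟩ := hD.exists_anticomm hxR hns
  obtain ⟨m', j, hm', hj⟩ := exists_param hF hD hR hxR hx haR ha hxa
  obtain rfl : m' = m := by omega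
  rcases IH _ _ (parR_data (by omega) hD hxR hx j) (parR_grp (by omega) hD hG hxR hx hns j)
    (parR_isom hR j hj) (parR_simil hU j hj) with h | ⟨h5, h⟩
  · have h1 := h ((paramEquiv j).symm φ) (show paramEquiv j _ ∈ Res x G by
      rw [AlgEquiv.apply_symm_apply]; exact hφ)
    rwa [nrm_parR_iff, AlgEquiv.apply_symm_apply] at h1
  · exact absurd (allTrv_of_res hF hq hq4 hD hG hR hU hm h5 hn hxR hx hns j hj h) hall

theorem three_eq_zero_iff (hq : q.Prime) : (3 : F) = 0 ↔ q = 3 := by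
  have := char_eq_of_prime hF hq
  refine ⟨fun h => ?_, fun h => ?_⟩
  · have : q ∣ 3 := (CharP.cast_eq_zero_iff F q 3).1 (by exact_mod_cast h)
    exact (Nat.prime_dvd_prime_iff_eq hq Nat.prime_three).1 this
  · have h' : ((3 : ℕ) : F) = 0 := (CharP.cast_eq_zero_iff F q 3).2 (h ▸ dvd_refl _)
    exact_mod_cast h'

theorem dichotomy_two (hq : q.Prime) (hq4 : q % 4 = 3) (i : F)
    (R G : Set (Module.End F (Fin 2 → F))) (hD : Data i R) (hG : Grp i R G) (hR : Isom q R)
    (hU : Simil q G) : (∀ g ∈ G, Nrm R g) ∨ ((2 = 2 → 5 ≤ q) ∧ AllTrv hF hG) := by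
  rcases normalises_or_trv_of_two_of_seven hF hq hq4 hD hG hR hU with h | ⟨h7, h⟩
  · exact Or.inl h
  · exact Or.inr ⟨fun _ => by omega, fun e he => ⟨he, fun a ha => h e a ha⟩⟩

theorem dichotomy_four [Fintype F] (hq : q.Prime) (hq4 : q % 4 = 3) : Dichotomy 4 F q hF := by
  intro i R G hD hG hR hU
  refine dichotomy_step hF hq hq4 le_rfl rfl hD hG hR hU (dichotomy_two hF hq hq4 i) ?_
  intro hGood hall
  refine fix_of_noControlled hD hG hGood ?_
  intro x b c hxR hx hns hbR hcR hb hc hbc hxb hxc e heG he1 he2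
  by_cases h3 : (3 : F) = 0
  · exact hall (allTrv_of_controlled hF hq hq4 h3 hD hG hR hU hxR hx hns hbR hcR hb hc hbc hxb
      hxc heG he1 he2)
  · exact no_controlled hD hG hGood (antidiag_of_sqField hF hD.sq_i hD.two_ne h3) h3 hxR hx hns
      hbR hcR hb hc hbc hxb hxc heG he1 he2

theorem dichotomy_eight [Fintype F] (hq : q.Prime) (hq4 : q % 4 = 3) : Dichotomy 8 F q hF := by
  intro i R G hD hG hR hU
  refine dichotomy_step hF hq hq4 (m := 4) (by norm_num) rfl hD hG hR hU
    (fun R' G' hD' hG' hR' hU' => (dichotomy_four hF hq hq4 i R' G' hD' hG' hR' hU').imp_right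
      fun h => ⟨fun h4 => absurd h4 (by norm_num), h⟩) ?_
  intro hGood _
  exact fix_of_noControlled hD hG hGood
    (noControlled_of_eight hD hGood (by rw [Module.finrank_fin_fun]))

/-- Class six in `SU_8(p)`. -/
theorem su_eight_symplecticType_maximal [Fintype F] (hq : q.Prime) (hq4 : q % 4 = 3)
    {R : Subgroup (GL (Fin 8) F)} (hst : Geo.IsSymplecticTypeGroup 2 R)
    (hirr : Geo.ActsAbsolutelyIrreducibly (Geo.matrixSet R)) (hRU : R ≤ Cfsg.GU 8 F q)
    (hZ : Nat.card (Subgroup.center R) = 4) :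
    Geo.IsMaximalIn (Cfsg.GU 8 F q ⊓ Geo.specialLinear (Fin 8) F)
      (Geo.subgroupNormalizer R ⊓ (Cfsg.GU 8 F q ⊓ Geo.specialLinear (Fin 8) F)) :=
  suGL_normalizer_maximal hF hq hq4 rfl (dichotomy_eight hF hq hq4) hst hirr hRU hZ

end Cfsg.Agent.MaxSub.CSixU
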