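import Cfsg.Agent.MaxSub.CSixU.Frame

/-!
The bad case: if the centraliser of an involution of `R` induces all transvections on its fixed
space, then `G` contains all transvections.
-/

set_option autoImplicit false
set_option linter.unusedSectionVars false

namespace Cfsg.Agent.MaxSub.CSixU

open Classical.U DecompMax.UN CSix Module

universe u

variable {F : Type u} [Field F] {n m q : ℕ} {i : F} {R G : Set (Module.End F (Fin n → F))}

/-- The algebra equivalence given by a parametrisation of the fixed space. -/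
noncomputable def paramEquiv {x : Module.End F (Fin n → F)} (j : (Fin m → F) ≃ₗ[F] Eig x) :
    Module.End F (Fin m → F) ≃ₐ[F] Module.End F (Eig x) :=
  j.conjAlgEquiv F

theorem paramEquiv_apply {x : Module.End F (Fin n → F)} (j : (Fin m → F) ≃ₗ[F] Eig x)
    (φ : Module.End F (Fin m → F)) (w : Eig x) : paramEquiv j φ w = j (φ (j.symm w)) := rfl

/-- The restriction of `R`, in coordinates. -/
def ParR {x : Module.End F (Fin n → F)} (j : (Fin m → F) ≃ₗ[F] Eig x)
    (S : Set (Module.End F (Fin n → F))) : Set (Module.End F (Fin m → F)) :=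
  paramEquiv j ⁻¹' Res x S

theorem mem_parR {x : Module.End F (Fin n → F)} (j : (Fin m → F) ≃ₗ[F] Eig x)
    {S : Set (Module.End F (Fin n → F))} {φ : Module.End F (Fin m → F)} :
    φ ∈ ParR j S ↔ ∃ f ∈ S, x * f = f * x ∧ ∀ u, f (j u) = (j (φ u) : Fin n → F) := by
  constructor
  · rintro ⟨f, hf, hfc, h⟩
    refine ⟨f, hf, hfc, fun u => ?_⟩
    have := h (j u)
    rw [paramEquiv_apply, j.symm_apply_apply] at this
    exact this.symm
  · rintro ⟨f, hf, hfc, h⟩
    refine ⟨f, hf, hfc, fun w => ?_⟩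
    rw [paramEquiv_apply, ← h, j.apply_symm_apply]

theorem parR_isom (hR : Isom q R) {x : Module.End F (Fin n → F)}
    (j : (Fin m → F) ≃ₗ[F] Eig x)
    (hj : ∀ u v, herm q (j u : Fin n → F) (j v) = herm q u v) : Isom q (ParR j R) := by
  intro φ hφ u v
  obtain ⟨f, hf, -, h⟩ := (mem_parR j).1 hφ
  rw [← hj, ← h, ← h, hR f hf, hj]

theorem parR_simil (hU : Simil q G) {x : Module.End F (Fin n → F)}
    (j : (Fin m → F) ≃ₗ[F] Eig x)
    (hj : ∀ u v, herm q (j u : Fin n → F) (j v) = herm q u v) : Simil q (ParR j G) := by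
  intro φ hφ
  obtain ⟨f, hf, -, h⟩ := (mem_parR j).1 hφ
  obtain ⟨c, hc⟩ := hU f hf
  exact ⟨c, fun u v => by rw [← hj, ← h, ← h, hc, hj]⟩

theorem parR_data [Finite F] (hn : 1 ≤ n) (hD : Data i R) {x : Module.End F (Fin n → F)}
    (hxR : x ∈ R) (hx : x * x = 1) (j : (Fin m → F) ≃ₗ[F] Eig x) : Data i (ParR j R) :=
  haveI : Nonempty (Fin n) := ⟨⟨0, hn⟩⟩
  data_preimage (paramEquiv j) (hD.res hxR hx)

theorem parR_grp [Finite F] (hn : 1 ≤ n) (hD : Data i R) (hG : Grp i R G)
    {x : Module.End F (Fin n → F)} (hxR : x ∈ R) (hx : x * x = 1) (hns : NS x)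
    (j : (Fin m → F) ≃ₗ[F] Eig x) : Grp i (ParR j R) (ParR j G) :=
  haveI : Nonempty (Fin n) := ⟨⟨0, hn⟩⟩
  grp_preimage (paramEquiv j) (hG.res hD hxR hx hns)

theorem nrm_parR_iff {x : Module.End F (Fin n → F)} (j : (Fin m → F) ≃ₗ[F] Eig x)
    {φ : Module.End F (Fin m → F)} :
    Nrm (ParR j R) φ ↔ Nrm (Res x R) (paramEquiv j φ) :=
  nrm_preimage_iff (paramEquiv j)

/-- All isotropic vectors are transvection centres in `G`. -/
def AllTrv (hF : SqField F q) (hG : Grp i R G) : Prop :=
  ∀ e : Fin n → F, herm q e e = 0 → e ∈ ctr hF (isoSub q hG)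

variable (hF : SqField F q)
include hF

theorem isoSub_frame_data (hi : i * i = -1) (h2 : (2 : F) ≠ 0) (hq : q % 4 = 3) :
    (1 + i : F) ≠ 0 ∧ (1 + i) * (1 + i) ^ q = 2 ∧ (1 + i)⁻¹ * (1 - i) = -i := by
  have h1 : (1 + i) * (1 + i) ^ q = 2 := by
    rw [hF.add_pow, one_pow, i_pow hF hq hi]; linear_combination -hi
  have h0 : (1 + i : F) ≠ 0 := fun h => h2 (by rw [← h1, h, zero_mul])
  refine ⟨h0, h1, ?_⟩
  rw [inv_mul_eq_iff_eq_mul₀ h0]
  linear_combination hi

theorem allTrv_of_source [Finite F] (hq : q.Prime) (hq4 : q % 4 = 3) (hD : Data i R)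
    (hG : Grp i R G) (hR : Isom q R) (hU : Simil q G) (hm : 2 ≤ m)
    (hn : n = 2 * m) {x : Module.End F (Fin n → F)} (hxR : x ∈ R) (hx : x * x = 1) (hns : NS x)
    (j : (Fin m → F) ≃ₗ[F] Eig x)
    (hj : ∀ u v, herm q (j u : Fin n → F) (j v) = herm q u v)
    (hsrc : ((m = 2 → 5 ≤ q) ∧ AllTrv hF (parR_grp (by omega) hD hG hxR hx hns j)) ∨
      ∀ e, herm q e e = 0 → (j e : Fin n → F) ∈ ctr hF (isoSub q hG)) : AllTrv hF hG := by
  haveI : Nonempty (Fin n) := ⟨⟨0, by omega⟩⟩
  have h2 := hD.two_ne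
  have hi := hD.sq_i
  have hiq := i_pow hF hq4 hi
  have hq2 : q ≠ 2 := by omega
  obtain ⟨hi1, hnorm, hquot⟩ := isoSub_frame_data hF hi h2 hq4
  obtain ⟨a, haR, ha, hxa⟩ := hD.exists_anticomm hxR hns
  have hax : ∀ v, x (a v) = -a (x v) := fun v => by
    simpa using congrArg (fun g : Module.End F (Fin n → F) => g v) hxa
  have haa : ∀ v, a (a v) = v := fun v => by
    simpa using congrArg (fun g : Module.End F (Fin n → F) => g v) ha
  have hxv : ∀ v, x (x v) = v := fun v => by
    simpa using congrArg (fun g : Module.End F (Fin n → F) => g v) hx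
  have hxj : ∀ u, x (j u : Fin n → F) = (j u : Fin n → F) := fun u => mem_eig.1 (j u).2
  have hxaj : ∀ u, x (a (j u : Fin n → F)) = -a (j u : Fin n → F) := fun u => by
    rw [hax, hxj]
  have hcross : ∀ u v, herm q (j u : Fin n → F) (a (j v : Fin n → F)) = 0 := by
    intro u v
    have h := hR x hxR (j u) (a (j v : Fin n → F))
    rw [hxj, hxaj, hF.herm_neg_right] at h
    exact (mul_eq_zero.1 (show (2 : F) * herm q (j u : Fin n → F) (a (j v : Fin n → F)) = 0 by
      linear_combination -h)).resolve_left h2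
  -- the coordinates
  let Φ₀ : ((Fin m → F) × (Fin m → F)) →ₗ[F] (Fin n → F) :=
    ((Eig x).subtype ∘ₗ j.toLinearMap).coprod (a ∘ₗ (Eig x).subtype ∘ₗ j.toLinearMap)
  have hΦ₀ : ∀ u v, Φ₀ (u, v) = (j u : Fin n → F) + a (j v : Fin n → F) := fun u v => by
    simp [Φ₀]
  have hherm : ∀ u v u' v', herm q (Φ₀ (u, v)) (Φ₀ (u', v')) = herm q u u' + herm q v v' := by
    intro u v u' v'
    rw [hΦ₀, hΦ₀, herm_add_left, hF.herm_add_right, hF.herm_add_right, hj, hcross,
      ← hF.herm_symm (j u' : Fin n → F), hcross, zero_pow hF.q_ne_zero, hR a haR, hj]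
    ring
  have hinj : Function.Injective Φ₀ := by
    refine (injective_iff_map_eq_zero _).2 ?_
    rintro ⟨u, v⟩ h
    have h1 : ∀ u' v', herm q u u' + herm q v v' = 0 := fun u' v' => by
      rw [← hherm, h, herm_zero_left]
    refine Prod.ext (hF.eq_zero_of_herm u fun u' => ?_) (hF.eq_zero_of_herm v fun v' => ?_)
    · simpa [hF.herm_zero_right] using h1 u' 0
    · simpa [hF.herm_zero_right] using h1 0 v'
  let Φ : ((Fin m → F) × (Fin m → F)) ≃ₗ[F] (Fin n → F) :=
    LinearEquiv.ofBijective Φ₀ ⟨hinj,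
      (LinearMap.injective_iff_surjective_of_finrank_eq_finrank
        (by rw [Module.finrank_prod, Module.finrank_fin_fun, Module.finrank_fin_fun, hn, two_mul])).1
        hinj⟩
  have hΦ : ∀ u v, Φ (u, v) = (j u : Fin n → F) + a (j v : Fin n → F) := hΦ₀
  set M := isoSub q hG with hM
  -- elements given in coordinates
  have hmk : ∀ (g : Module.End F (Fin n → F)) (P : (Fin m → F) → (Fin m → F) → Fin n → F),
      g ∈ G → (∀ u v, g (Φ (u, v)) = P u v) →
      (∀ u v u' v', herm q (P u v) (P u' v') = herm q u u' + herm q v v') →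
      ∃ k ∈ M, ∀ u v, k.1 (Φ (u, v)) = P u v := by
    intro g P hg hgP hP
    obtain ⟨k, hk, hkg⟩ := exists_mem_isoSub hF hG hg (fun w z => by
      obtain ⟨⟨u, v⟩, rfl⟩ := Φ.surjective w
      obtain ⟨⟨u', v'⟩, rfl⟩ := Φ.surjective z
      rw [hgP, hgP, hP, show herm q (Φ (u, v)) (Φ (u', v')) = _ from hherm u v u' v'])
    exact ⟨k, hk, fun u v => by rw [hkg, hgP]⟩
  -- the two quarter turns and the swap
  obtain ⟨T, hT, hTa⟩ := hmk ((1 + i)⁻¹ • (1 + i • a))
    (fun u v => (1 + i)⁻¹ • Φ (u + i • v, v + i • u))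
    (hG.smul_mem' (inv_ne_zero hi1) (hG.t_mem a haR ha))
    (fun u v => by
      simp only [LinearMap.smul_apply, LinearMap.add_apply, Module.End.one_apply, hΦ, map_add,
        map_smul, Submodule.coe_add, Submodule.coe_smul, haa, smul_add]
      module)
    (fun u v u' v' => by
      rw [herm_smul_left, herm_smul_right, show herm q (Φ (_, _)) (Φ (_, _)) = _ from hherm _ _ _ _]
      simp only [herm_add_left, hF.herm_add_right, herm_smul_left, herm_smul_right, hiq, inv_pow]
      have : (1 + i)⁻¹ * ((1 + i) ^ q)⁻¹ = (2 : F)⁻¹ := by rw [← mul_inv, hnorm]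
      rw [← mul_assoc, this, inv_mul_eq_iff_eq_mul₀ h2]
      linear_combination -(herm q u u' + herm q v v') * hi)
  obtain ⟨S, hS, hSa⟩ := hmk ((1 + i)⁻¹ • (1 + i • x))
    (fun u v => Φ (u, (-i) • v))
    (hG.smul_mem' (inv_ne_zero hi1) (hG.t_mem x hxR hx))
    (fun u v => by
      simp only [LinearMap.smul_apply, LinearMap.add_apply, Module.End.one_apply, hΦ, map_add,
        map_smul, Submodule.coe_smul, hxj, hxaj, smul_neg]
      rw [show ((j u : Fin n → F) + i • (j u : Fin n → F)) = (1 + i) • (j u : Fin n → F) by module,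
        show (a (j v : Fin n → F) + -(i • a (j v : Fin n → F))) =
          (1 - i) • a (j v : Fin n → F) by module,
        smul_smul, smul_smul, inv_mul_cancel₀ hi1, one_smul, hquot])
    (fun u v u' v' => by
      rw [show herm q (Φ (_, _)) (Φ (_, _)) = _ from hherm _ _ _ _]
      simp only [herm_smul_left, herm_smul_right, hF.neg_pow, hiq]
      linear_combination -(herm q v v') * hi)
  obtain ⟨A, hA, hAa⟩ := hmk a (fun u v => Φ (v, u)) (hG.sub haR)
    (fun u v => by rw [hΦ, hΦ, map_add, haa, add_comm])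
    (fun u v u' v' => by
      rw [show herm q (Φ (_, _)) (Φ (_, _)) = _ from hherm _ _ _ _, add_comm])
  -- an involution of `R` commuting with `x`, not scalar on the fixed space
  have hD' := parR_data (by omega) hD hxR hx j
  obtain ⟨φ, hφR, hφns, hφsq⟩ : ∃ φ ∈ ParR j R, NS φ ∧ φ * φ = 1 := by
    obtain ⟨φ, hφ, hφns⟩ : ∃ φ ∈ ParR j R, NS φ := by
      by_contra hcon
      push Not at hcon
      have hle : Submodule.span F (ParR j R) ≤ F ∙ (1 : Module.End F (Fin m → F)) :=
        Submodule.span_le.2 fun b hb => by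
          by_contra h
          exact hcon b hb fun c hc =>
            h (hc ▸ Submodule.smul_mem _ c (Submodule.mem_span_singleton_self _))
      rw [hD'.span_eq] at hle
      haveI : Nonempty (Fin m) := ⟨⟨0, by omega⟩⟩
      have h1 : finrank F (⊤ : Submodule F (Module.End F (Fin m → F))) ≤ 1 :=
        (Submodule.finrank_mono hle).trans (finrank_span_singleton one_ne_zero).le
      rw [finrank_top, Module.finrank_linearMap, Module.finrank_fin_fun] at h1
      have : 4 ≤ m * m := le_trans (by norm_num) (Nat.mul_le_mul hm hm)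
      omega
    obtain ⟨c, hc, hcm, hcs⟩ := hD'.exists_sq_one hφ
    exact ⟨_, hcm, hφns.smul hc, hcs⟩
  obtain ⟨r, hrR, hrx, hrj⟩ := (mem_parR j).1 hφR
  haveI : Nonempty (Fin m) := ⟨⟨0, by omega⟩⟩
  have hr : r * r = 1 := by
    refine (hD.sq_sign r hrR).resolve_right fun h => ?_
    obtain ⟨u, hu⟩ := exists_ne (0 : Fin m → F)
    have h1 := congrArg (fun g : Module.End F (Fin n → F) => g (j u)) h
    simp only [Module.End.mul_apply, hrj, LinearMap.neg_apply, Module.End.one_apply] at h1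
    rw [← Module.End.mul_apply, hφsq, Module.End.one_apply] at h1
    refine hu (j.injective (Subtype.ext ?_))
    rw [map_zero, ZeroMemClass.coe_zero]
    exact (smul_eq_zero.1 (show (2 : F) • (j u : Fin n → F) = 0 by
      rw [two_smul]; nth_rewrite 1 [h1]; simp)).resolve_left h2
  obtain ⟨C, hC, hCa⟩ := hmk ((2 : F)⁻¹ • (1 - x + r + x * r)) (fun u v => Φ (φ u, v))
    (by
      have hxr : (x * r) * (x * r) = 1 := by
        rw [mul_assoc, ← mul_assoc r x r, ← hrx, mul_assoc x r r, hr, mul_one, hx]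
      have hprod : (1 + i • -x) * (1 + i • r) * (1 + i • (x * r)) =
          (1 + i) • (1 - x + r + x * r) := by
        refine LinearMap.ext fun v => ?_
        have e1 : r (x v) = x (r v) :=
          (congrArg (fun g : Module.End F (Fin n → F) => g v) hrx).symm
        have e2 : r (r v) = v := by
          simpa using congrArg (fun g : Module.End F (Fin n → F) => g v) hr
        have e3 : r (x (r v)) = x v := by
          rw [← Module.End.mul_apply, ← hrx, Module.End.mul_apply, e2]
        simp only [LinearMap.smul_apply, LinearMap.add_apply, LinearMap.sub_apply, LinearMap.neg_apply,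
          Module.End.mul_apply, Module.End.one_apply, map_add, map_sub, map_neg, map_smul, e1, e2, e3,
          hxv, smul_add, smul_neg, smul_smul, hi, neg_mul, smul_sub]
        module
      have := hG.smul_mem' (c := (2 * (1 + i))⁻¹) (inv_ne_zero (mul_ne_zero h2 hi1))
        (hG.mul_mem _ (hG.mul_mem _ (hG.t_mem _ (hD.neg_mem hxR) (LinearMap.ext fun v => by simp [hxv]))
          _ (hG.t_mem r hrR hr)) _ (hG.t_mem _ (hD.mul_mem _ hxR _ hrR) hxr))
      rwa [hprod, smul_smul, mul_inv, mul_assoc, inv_mul_cancel₀ hi1, mul_one] at this)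
    (fun u v => by
      have e : x (r (a (j v : Fin n → F))) = -r (a (j v : Fin n → F)) := by
        rw [← Module.End.mul_apply, hrx, Module.End.mul_apply, hxaj, map_neg]
      simp only [LinearMap.smul_apply, LinearMap.add_apply, LinearMap.sub_apply,
        Module.End.mul_apply, Module.End.one_apply, hΦ, map_add, hxj, hxaj, hrj, e]
      rw [show ((j u : Fin n → F) - (j u : Fin n → F) + (j (φ u) : Fin n → F) +
          (j (φ u) : Fin n → F)) = (2 : F) • (j (φ u) : Fin n → F) by module,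
        show (a (j v : Fin n → F) - -a (j v : Fin n → F) + r (a (j v : Fin n → F)) +
          -r (a (j v : Fin n → F))) = (2 : F) • a (j v : Fin n → F) by module,
        smul_smul, smul_smul, inv_mul_cancel₀ h2, one_smul, one_smul])
    (fun u v u' v' => by
      rw [show herm q (Φ (_, _)) (Φ (_, _)) = _ from hherm _ _ _ _, parR_isom hR j hj φ hφR])
  have hL : ∀ e, herm q e e = 0 → Φ (e, 0) ∈ ctr hF M := by
    rcases hsrc with ⟨h5, hrec⟩ | hctr
    swap
    · intro e he
      rw [hΦ, map_zero, ZeroMemClass.coe_zero, map_zero, add_zero]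
      exact hctr e he
    -- the subgroup acting on the first block only
    let K : Subgroup (UG m F q) :=
      { carrier := {g | ∃ k ∈ M, ∀ u v, k.1 (Φ (u, v)) = Φ (g.1 u, v)}
        one_mem' := ⟨1, one_mem _, fun u v => rfl⟩
        mul_mem' := by
          rintro g g' ⟨k, hk, e⟩ ⟨k', hk', e'⟩
          exact ⟨k * k', mul_mem hk hk', fun u v => by
            rw [Subgroup.coe_mul, LinearEquiv.mul_apply, e', e, Subgroup.coe_mul,
              LinearEquiv.mul_apply]⟩
        inv_mem' := by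
          rintro g ⟨k, hk, e⟩
          refine ⟨k⁻¹, inv_mem hk, fun u v => k.1.injective ?_⟩
          rw [e]
          simp }
    have hnorm : ∀ t ∈ TG m F q, ∀ g ∈ K, t * g * t⁻¹ ∈ K := by
      intro t ht g hg
      obtain ⟨k, hk, e⟩ := hg
      obtain ⟨f, hf, hfx, hft⟩ := (mem_parR j).1
        (mem_isoSub.1 (TG_le_of_all_ctr hF hrec ht))
      obtain ⟨w₀, hw₀⟩ : ∃ w₀ : Fin m → F, herm q w₀ w₀ ≠ 0 :=
        ⟨Pi.single ⟨0, by omega⟩ 1, by rw [herm_single_one _ hF.q_ne_zero]; simp⟩
      have hfiso := simil_const hF (by omega) hU hf (u := (j w₀ : Fin n → F))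
        (by rw [hj]; exact hw₀) (by rw [hft, hj, hj]; exact t.2 _ _)
      obtain ⟨f', hf', hff'⟩ := exists_mem_isoSub hF hG hf hfiso
      refine ⟨f' * k * f'⁻¹, mul_mem (mul_mem hf' hk) (inv_mem hf'), fun u v => ?_⟩
      -- `f'⁻¹` preserves the second block
      have hfix : ∀ w, x (f'.1 w) = f'.1 (x w) := fun w => by
        rw [hff', hff']; exact congrArg (fun g : Module.End F (Fin n → F) => g w) hfx
      obtain ⟨w, hw⟩ : ∃ w, (f'⁻¹ : UG n F q).1 (a (j v : Fin n → F)) = a (j w : Fin n → F) := by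
        set z := (f'⁻¹ : UG n F q).1 (a (j v : Fin n → F)) with hz
        have hxz : x z = -z := f'.1.injective (by
          rw [← hfix, map_neg, hz]
          simp [hxaj])
        have hmem : a z ∈ Eig x := by rw [mem_eig, hax, hxz, map_neg, neg_neg]
        exact ⟨j.symm ⟨a z, hmem⟩, by rw [j.apply_symm_apply]; exact (haa z).symm⟩
      have hinv : (f'⁻¹ : UG n F q).1 (Φ (u, v)) = Φ ((t⁻¹ : UG m F q).1 u, w) := by
        rw [hΦ, hΦ, map_add, hw]
        congr 1
        refine f'.1.injective ?_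
        conv_rhs => rw [hff', hft]
        simp
      rw [Subgroup.coe_mul, Subgroup.coe_mul, LinearEquiv.mul_apply, LinearEquiv.mul_apply, hinv, e,
        hΦ, hΦ, map_add, ← hw]
      congr 1
      · rw [hff', hft]; rfl
      · simp
    obtain ⟨φ', hφ'⟩ : ∃ φ' : UG m F q, ∀ u, φ'.1 u = φ u :=
      ⟨⟨LinearEquiv.ofLinearMap φ φ hφsq hφsq, parR_isom hR j hj φ hφR⟩, fun u => rfl⟩
    have hφK : φ' ∈ K := ⟨C, hC, fun u v => by rw [hCa, hφ']⟩
    have hK : ∀ e, herm q e e = 0 → e ∈ ctr hF K := fun e he =>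
      all_ctr_of_normal hF hq hq2 hm h5 hnorm hφK
        (fun ⟨c, hc⟩ => hφns c (LinearMap.ext fun u => by rw [← hφ', hc]; rfl)) he
    intro e he
    refine ⟨by rw [show herm q (Φ (e, 0)) (Φ (e, 0)) = _ from hherm _ _ _ _, he,
      herm_zero_left, add_zero], fun c hc => ?_⟩
    have hc' : TrvCond q e c := ⟨he, hc.2⟩
    obtain ⟨k, hk, hkt⟩ := (hK e he).2 c hc'
    convert hk using 1
    refine Subtype.ext (LinearEquiv.ext fun z => ?_)
    obtain ⟨⟨u, v⟩, rfl⟩ := Φ.surjective z
    rw [trv_apply hF hc, hkt, trv_apply hF hc', show herm q (Φ (u, v)) (Φ (e, 0)) = _ from hherm _ _ _ _,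
      hF.herm_zero_right, add_zero, ← map_smul, ← map_add, Prod.smul_mk, Prod.mk_add_mk,
      smul_zero, add_zero]
  intro z hz
  refine all_ctr_of_blocks hF hm hq2 hi hiq h2 Φ hherm hT hS hTa hSa hL (fun e he => ?_) hz
  have := ctr_map hF (hL e he) hA
  rwa [hAa] at this

theorem allTrv_of_res [Finite F] (hq : q.Prime) (hq4 : q % 4 = 3) (hD : Data i R)
    (hG : Grp i R G) (hR : Isom q R) (hU : Simil q G) (hm : 2 ≤ m) (h5 : m = 2 → 5 ≤ q)
    (hn : n = 2 * m) {x : Module.End F (Fin n → F)} (hxR : x ∈ R) (hx : x * x = 1) (hns : NS x)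
    (j : (Fin m → F) ≃ₗ[F] Eig x)
    (hj : ∀ u v, herm q (j u : Fin n → F) (j v) = herm q u v)
    (hrec : AllTrv hF (parR_grp (by omega) hD hG hxR hx hns j)) : AllTrv hF hG :=
  allTrv_of_source hF hq hq4 hD hG hR hU hm hn hxR hx hns j hj (Or.inl ⟨h5, hrec⟩)

end Cfsg.Agent.MaxSub.CSixU
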