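import Cfsg.Agent.MaxSub.CSixU.Frame

/-!
The determinant of the quarter turn `(1 + i)⁻¹ (1 + i y)` of an involution of `R`.
-/

set_option autoImplicit false
set_option linter.unusedSectionVars false

namespace Cfsg.Agent.MaxSub.CSixU

open CSix Module

variable {F : Type*} [Field F] {V : Type*} [AddCommGroup V] [Module F V] [FiniteDimensional F V]

/-- An endomorphism acting by scalars on the two eigenspaces of an involution with an
anticommuting involution. -/
theorem det_of_eigen (h2 : (2 : F) ≠ 0) {x a f : Module.End F V} (hx : x * x = 1) (ha : a * a = 1)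
    (hxa : x * a = -(a * x)) {α β : F} (hp : ∀ v, x v = v → f v = α • v)
    (hm : ∀ v, x v = -v → f v = β • v) :
    LinearMap.det f = α ^ finrank F (Eig x) * β ^ finrank F (Eig x) := by
  have hax : ∀ v : V, x (a v) = -a (x v) := fun v => by
    simpa using congrArg (fun g : Module.End F V => g v) hxa
  have haa : ∀ v : V, a (a v) = v := fun v => by
    simpa using congrArg (fun g : Module.End F V => g v) ha
  let Φ₀ : Eig x × Eig x →ₗ[F] V := (Eig x).subtype.coprod (a ∘ₗ (Eig x).subtype)
  have hinj : Function.Injective Φ₀ := by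
    refine (injective_iff_map_eq_zero _).2 ?_
    rintro ⟨u, w⟩ h
    simp only [Φ₀, LinearMap.coprod_apply, Submodule.subtype_apply, LinearMap.comp_apply] at h
    have h' := congrArg x h
    rw [map_add, mem_eig.1 u.2, hax, mem_eig.1 w.2, map_zero] at h'
    have hu : (u : V) = 0 := (smul_eq_zero.1 (show (2 : F) • (u : V) = 0 by
      rw [two_smul]
      calc (u : V) + u = ((u : V) + a (w : V)) + ((u : V) + -a (w : V)) := by abel
        _ = 0 := by rw [h, h', add_zero])).resolve_left h2
    have hw : a (w : V) = 0 := by rwa [hu, zero_add] at h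
    have hw' : (w : V) = 0 := by rw [← haa (w : V), hw, map_zero]
    exact Prod.ext (Subtype.ext hu) (Subtype.ext hw')
  let e : (Eig x × Eig x) ≃ₗ[F] V := LinearEquiv.ofBijective Φ₀ ⟨hinj,
    (LinearMap.injective_iff_surjective_of_finrank_eq_finrank
      (by rw [Module.finrank_prod, ← two_mul, two_mul_finrank_eig h2 hx ha hxa])).1 hinj⟩
  have hf : f = e.toLinearMap ∘ₗ
      (LinearMap.prodMap (α • (LinearMap.id : Eig x →ₗ[F] Eig x)) (β • LinearMap.id)) ∘ₗ
        e.symm.toLinearMap := by
    refine LinearMap.ext fun v => ?_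
    obtain ⟨⟨u, w⟩, rfl⟩ := e.surjective v
    simp only [LinearMap.comp_apply, LinearEquiv.coe_coe, e.symm_apply_apply,
      LinearMap.prodMap_apply, LinearMap.smul_apply, LinearMap.id_apply]
    change f ((u : V) + a (w : V)) = (α • (u : V)) + a (β • (w : V))
    rw [map_add, hp _ (mem_eig.1 u.2), hm _ (by rw [hax, mem_eig.1 w.2]), map_smul]
  rw [hf, LinearMap.det_conj, LinearMap.det_prodMap, LinearMap.det_smul, LinearMap.det_smul,
    LinearMap.det_id, mul_one, mul_one]

end Cfsg.Agent.MaxSub.CSixU
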