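import Cfsg.Agent.MaxSub.CSixU.Trans
import Cfsg.Agent.MaxSub.TensorU.Forms

/-!
Two orthogonal blocks with all transvections in each and two quarter turns mixing them give all
transvections.
-/

set_option autoImplicit false
set_option linter.unusedSectionVars false

namespace Cfsg.Agent.MaxSub.CSixU

open Classical.U DecompMax.UN

universe u

variable {F : Type u} [Field F] {n m q : ℕ} (hF : SqField F q)
include hF

theorem mem_ctr_iff_map {M : Subgroup (UG n F q)} {g : UG n F q} (hg : g ∈ M) {e : Fin n → F} :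
    g.1 e ∈ ctr hF M ↔ e ∈ ctr hF M := by
  refine ⟨fun h => ?_, fun h => ctr_map hF h hg⟩
  simpa using ctr_map hF h (inv_mem hg)

/-- The mixing lemma. -/
theorem all_ctr_of_blocks (hm : 2 ≤ m) (hq2 : q ≠ 2) {i : F} (hi : i * i = -1) (hiq : i ^ q = -i)
    (h2 : (2 : F) ≠ 0) (Φ : ((Fin m → F) × (Fin m → F)) ≃ₗ[F] (Fin n → F))
    (hΦ : ∀ u v u' v', herm q (Φ (u, v)) (Φ (u', v')) = herm q u u' + herm q v v')
    {M : Subgroup (UG n F q)} {T S : UG n F q} (hT : T ∈ M) (hS : S ∈ M)
    (hTa : ∀ u v, T.1 (Φ (u, v)) = (1 + i)⁻¹ • Φ (u + i • v, v + i • u))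
    (hSa : ∀ u v, S.1 (Φ (u, v)) = Φ (u, (-i) • v))
    (hL : ∀ e, herm q e e = 0 → Φ (e, 0) ∈ ctr hF M)
    (hR : ∀ e, herm q e e = 0 → Φ (0, e) ∈ ctr hF M)
    {z : Fin n → F} (hz : herm q z z = 0) : z ∈ ctr hF M := by
  have hi0 : i ≠ 0 := fun h => by simp [h] at hi
  have hi1 : (1 + i : F) ≠ 0 := by
    intro h
    have : (1 + i) * (1 - i) = 2 := by linear_combination -hi
    rw [h, zero_mul] at this
    exact h2 this.symm
  have hST := SUG_eq_TG hF hm (fun h => hq2 h.2)
  -- the transvections of the two blocks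
  have hleft : ∀ g ∈ TG m F q, ∀ u v, Φ (g.1 u, v) ∈ ctr hF M ↔ Φ (u, v) ∈ ctr hF M := by
    intro g hg
    induction hg using Subgroup.closure_induction with
    | mem g hg =>
      obtain ⟨e, a, hc, hg⟩ := hg
      intro u v
      have hc' : TrvCond q (Φ (e, 0)) a :=
        ⟨by rw [hΦ, hc.1, herm_zero_left, add_zero], hc.2⟩
      rw [← mem_ctr_iff_map hF ((hL e hc.1).2 a hc') (e := Φ (u, v)), trv_apply, hΦ,
        hF.herm_zero_right, add_zero, ← map_smul, ← map_add, Prod.smul_mk, Prod.mk_add_mk,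
        smul_zero, add_zero, hg]
    | one => simp
    | mul g k _ _ ihg ihk =>
      intro u v
      rw [Subgroup.coe_mul, LinearEquiv.mul_apply, ihg, ihk]
    | inv g _ ih =>
      intro u v
      rw [← ih ((g⁻¹ : UG m F q).1 u) v]
      simp
  have hright : ∀ g ∈ TG m F q, ∀ u v, Φ (u, g.1 v) ∈ ctr hF M ↔ Φ (u, v) ∈ ctr hF M := by
    intro g hg
    induction hg using Subgroup.closure_induction with
    | mem g hg =>
      obtain ⟨e, a, hc, hg⟩ := hg
      intro u v
      have hc' : TrvCond q (Φ (0, e)) a :=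
        ⟨by rw [hΦ, hc.1, herm_zero_left, zero_add], hc.2⟩
      rw [← mem_ctr_iff_map hF ((hR e hc.1).2 a hc') (e := Φ (u, v)), trv_apply, hΦ,
        hF.herm_zero_right, zero_add, ← map_smul, ← map_add, Prod.smul_mk, Prod.mk_add_mk,
        smul_zero, add_zero, hg]
    | one => simp
    | mul g k _ _ ihg ihk =>
      intro u v
      rw [Subgroup.coe_mul, LinearEquiv.mul_apply, ihg, ihk]
    | inv g _ ih =>
      intro u v
      rw [← ih u ((g⁻¹ : UG m F q).1 v)]
      simp
  -- a centre with parts of non-zero value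
  obtain ⟨k, rfl⟩ := Nat.exists_eq_add_of_le' hm
  obtain ⟨θ, l, hp, -⟩ := exists_std_pair hF k
  set v : Fin (k + 2) → F := Pi.single 0 1 + θ • Pi.single 1 1 with hv
  set f : Fin (k + 2) → F := Pi.single 0 1 + l • v with hf
  obtain ⟨d, hd, hdq⟩ := hF.exists_skew
  have hfv : herm q f v = 1 := (hp.symm hF).2.2
  have hp1 : Φ (v + i • (0 : Fin (k + 2) → F), 0 + i • v) ∈ ctr hF M := by
    have := ctr_smul hF (ctr_map hF (hL v hp.1) hT) (1 + i)
    rwa [hTa, smul_smul, mul_inv_cancel₀ hi1, one_smul] at this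
  rw [smul_zero, add_zero, zero_add] at hp1
  have hp2 : Φ (v, v) ∈ ctr hF M := by
    have := ctr_map hF hp1 hS
    rwa [hSa, smul_smul, neg_mul, hi, neg_neg, one_smul] at this
  set g := trv hF (show TrvCond q f d from ⟨hp.2.1, hdq⟩) with hg
  have hgv : g.1 v = v + d • f := by rw [hg, trv_apply, hp.2.2, mul_one]
  have hp3 : Φ (v + d • f, v) ∈ ctr hF M := by
    rw [← hgv]; exact (hleft g (trv_mem hF _) v v).2 hp2
  have hp4 : Φ (v + d • f + i • v, v + i • (v + d • f)) ∈ ctr hF M := by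
    have := ctr_smul hF (ctr_map hF hp3 hT) (1 + i)
    rwa [hTa, smul_smul, mul_inv_cancel₀ hi1, one_smul] at this
  set c₀ := herm q (v + d • f + i • v) (v + d • f + i • v) with hc₀def
  have hc₀ : c₀ = -2 * i * d := by
    rw [hc₀def]
    simp only [herm_add_left, hF.herm_add_right, herm_smul_left, herm_smul_right, hp.1, hp.2.1,
      hp.2.2, hfv, hdq, hiq]
    ring
  have hc₀0 : c₀ ≠ 0 := by
    rw [hc₀]; exact mul_ne_zero (mul_ne_zero (neg_ne_zero.2 h2) hi0) hd
  -- all centres with parts of non-zero value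
  have hgen : ∀ x y : Fin (k + 2) → F, herm q x x ≠ 0 →
      herm q x x + herm q y y = 0 → Φ (x, y) ∈ ctr hF M := by
    intro x y hx hxy
    obtain ⟨μ, hμ⟩ := hF.exists_norm (c := herm q x x / c₀)
      (by rw [div_pow, hF.herm_symm, hc₀def, hF.herm_symm])
    have hμn : μ * μ ^ q * c₀ = herm q x x := by
      rw [← pow_succ', hμ, div_mul_cancel₀ _ hc₀0]
    have hP := ctr_smul hF hp4 μ
    rw [← map_smul, Prod.smul_mk] at hP
    set x₀ := μ • (v + d • f + i • v) with hx₀
    set y₀ := μ • (v + i • (v + d • f)) with hy₀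
    have hxx : herm q x₀ x₀ = herm q x x := by
      rw [hx₀, herm_smul_left, herm_smul_right, ← mul_assoc, ← hc₀def, hμn]
    have hyy : herm q y₀ y₀ = herm q y y := by
      have h0 := hP.1
      rw [hΦ, hxx] at h0
      linear_combination h0 - hxy
    obtain ⟨g₁, hg₁, e₁⟩ := TensorU.SUG_transitive_norm hF (by omega) hxx (by rw [hxx]; exact hx)
    have hy : herm q y y ≠ 0 := fun h => hx (by linear_combination hxy - h)
    obtain ⟨g₂, hg₂, e₂⟩ := TensorU.SUG_transitive_norm hF (by omega) hyy (by rw [hyy]; exact hy)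
    rw [← e₁, ← e₂, hleft g₁ (hST ▸ hg₁), hright g₂ (hST ▸ hg₂)]
    exact hP
  -- the remaining points
  obtain ⟨⟨x, y⟩, rfl⟩ := Φ.surjective z
  rw [hΦ] at hz
  by_cases hx : herm q x x = 0
  swap
  · exact hgen x y hx hz
  have hy : herm q y y = 0 := by linear_combination hz - hx
  rcases eq_or_ne x 0 with rfl | hx0
  · exact hR y hy
  rcases eq_or_ne y 0 with rfl | hy0
  · exact hL x hx
  obtain ⟨e, he, hxe, -⟩ := exists_isotropic_not_orth hF hx0 hx hx0 hx
  obtain ⟨e', he', hye, -⟩ := exists_isotropic_not_orth hF hy0 hy hy0 hy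
  obtain ⟨s, hs, hsum⟩ : ∃ s : F, (s = 1 ∨ s = -1) ∧
      herm q x e + s * herm q y e' ≠ 0 := by
    by_contra hcon
    push Not at hcon
    have h1 := hcon 1 (Or.inl rfl)
    have h2' := hcon (-1) (Or.inr rfl)
    exact hxe ((mul_eq_zero.1 (show (2 : F) * herm q x e = 0 by linear_combination h1 + h2')).resolve_left h2)
  have hs2 : s * s = 1 := by rcases hs with rfl | rfl <;> ring
  have hsq : s ^ q = s := by
    rcases hs with rfl | rfl
    · exact one_pow q
    · rw [hF.neg_pow, one_pow]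
  set x' := e + (herm q x e)⁻¹ • x with hx'
  set y' := s • e' - (s * herm q y e')⁻¹ • y with hy'
  have hs0 : s ≠ 0 := fun h => by simp [h] at hs2
  have hxx' : herm q x' x' = 2 := by
    rw [hx']
    simp only [herm_add_left, hF.herm_add_right, herm_smul_left, herm_smul_right, he, hx,
      inv_pow]
    rw [← hF.herm_symm x e]
    field_simp
    ring
  have hyy' : herm q y' y' = -2 := by
    rw [hy']
    simp only [herm_sub_left, hF.herm_sub_right, herm_smul_left, herm_smul_right, he', hy,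
      inv_pow, mul_pow, hsq]
    rw [← hF.herm_symm y e']
    field_simp
    ring
  have hw : Φ (x', y') ∈ ctr hF M :=
    hgen x' y' (by rw [hxx']; exact h2) (by rw [hxx', hyy']; ring)
  have hxh : herm q x x' = herm q x e := by
    rw [hx', hF.herm_add_right, herm_smul_right, hx, mul_zero, add_zero]
  have hyh : herm q y y' = s * herm q y e' := by
    rw [hy', hF.herm_sub_right, herm_smul_right, herm_smul_right, hy, mul_zero, sub_zero, hsq]
  set h := herm q (Φ (x, y)) (Φ (x', y')) with hdef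
  have hh : h = herm q x e + s * herm q y e' := by rw [hdef, hΦ, hxh, hyh]
  have hh0 : h ≠ 0 := by rw [hh]; exact hsum
  -- move along the line
  set k₀ := d * h with hk₀
  have htr : k₀ ^ q * h + k₀ * h ^ q = 0 := by rw [hk₀, mul_pow, hdq]; ring
  obtain ⟨σ, hσ, hσne⟩ : ∃ σ : F, (σ = 1 ∨ σ = -1) ∧
      herm q (x + (σ * k₀) • x') (x + (σ * k₀) • x') ≠ 0 := by
    by_contra hcon
    push Not at hcon
    have h1 := hcon 1 (Or.inl rfl)
    have h3 := hcon (-1) (Or.inr rfl)
    simp only [herm_add_left, hF.herm_add_right, herm_smul_left, herm_smul_right, hx, hxx',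
      one_mul, neg_mul, hF.neg_pow] at h1 h3
    have h4 : (2 : F) * 2 * (k₀ * k₀ ^ q) = 0 := by linear_combination h1 + h3
    exact mul_ne_zero (mul_ne_zero h2 h2) (mul_ne_zero (mul_ne_zero hd hh0)
      (pow_ne_zero _ (mul_ne_zero hd hh0))) h4
  have hσq : σ ^ q = σ := by
    rcases hσ with rfl | rfl
    · exact one_pow q
    · rw [hF.neg_pow, one_pow]
  set j := σ * k₀ with hj
  have hz' : Φ (x, y) + j • Φ (x', y') ∈ ctr hF M := by
    have hi2 : herm q (Φ (x, y) + j • Φ (x', y')) (Φ (x, y) + j • Φ (x', y')) = 0 := by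
      simp only [herm_add_left, hF.herm_add_right, herm_smul_left, herm_smul_right, hw.1]
      rw [show herm q (Φ (x, y)) (Φ (x, y)) = 0 by rw [hΦ]; exact hz, ← hdef,
        ← hF.herm_symm (Φ (x, y)) (Φ (x', y')), ← hdef, hj, mul_pow, hσq]
      linear_combination σ * htr
    rw [← map_smul, ← map_add, Prod.smul_mk, Prod.mk_add_mk] at hi2 ⊢
    refine hgen _ _ hσne ?_
    rwa [hΦ] at hi2
  have hne : herm q (Φ (x, y) + j • Φ (x', y')) (Φ (x', y')) ≠ 0 := by
    rw [herm_add_left, herm_smul_left, hw.1, mul_zero, add_zero]; exact hh0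
  have := ctr_line hF hz' hw hne (α := 1) (β := -j) (by
    rw [one_smul, neg_smul, add_neg_cancel_right, hΦ]; exact hz)
  rwa [one_smul, neg_smul, add_neg_cancel_right] at this

end Cfsg.Agent.MaxSub.CSixU
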