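import Cfsg.Agent.MaxSub.CSixU.Transport
import Cfsg.Agent.MaxSub.CSixU.Mix
import Cfsg.Agent.Elusive25.Eigen

/-!
Unitary symplectic-type data: coordinates on the fixed space of an involution of `R`, and the
isometries in `G`.
-/

set_option autoImplicit false
set_option linter.unusedSectionVars false

namespace Cfsg.Agent.MaxSub.CSixU

open Classical.U DecompMax.UN CSix Module

universe u

variable {F : Type u} [Field F] {n m q : ℕ}

/-- Every member is an isometry of the hermitian form. -/
def Isom (q : ℕ) (R : Set (Module.End F (Fin n → F))) : Prop :=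
  ∀ r ∈ R, ∀ u v, herm q (r u) (r v) = herm q u v

/-- Every member is a similitude of the hermitian form. -/
def Simil (q : ℕ) (G : Set (Module.End F (Fin n → F))) : Prop :=
  ∀ g ∈ G, ∃ c : F, ∀ u v, herm q (g u) (g v) = c * herm q u v

variable {i : F} {R G : Set (Module.End F (Fin n → F))}

/-- The isometries lying in `G`. -/
def isoSub (q : ℕ) (hG : Grp i R G) : Subgroup (UG n F q) where
  carrier := {g | (g.1 : Module.End F (Fin n → F)) ∈ G}
  one_mem' := by
    rw [Set.mem_setOf_eq]
    convert hG.one_mem using 1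
    exact LinearMap.ext fun v => rfl
  mul_mem' {a b} ha hb := by
    rw [Set.mem_setOf_eq] at *
    convert hG.mul_mem _ ha _ hb using 1
    exact LinearMap.ext fun v => rfl
  inv_mem' {a} ha := by
    rw [Set.mem_setOf_eq] at *
    obtain ⟨g', hg', h1, -⟩ := hG.inv_mem _ ha
    convert hg' using 1
    refine LinearMap.ext fun v => a.1.injective ?_
    have := congrArg (fun f : Module.End F (Fin n → F) => f v) h1
    simp only [Module.End.mul_apply, Module.End.one_apply, LinearEquiv.coe_coe] at this
    simp [this]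

theorem mem_isoSub {hG : Grp i R G} {g : UG n F q} :
    g ∈ isoSub q hG ↔ (g.1 : Module.End F (Fin n → F)) ∈ G := Iff.rfl

variable (hF : SqField F q)
include hF

/-- An element of `G` preserving the form is an isometry in `isoSub`. -/
theorem exists_mem_isoSub (hG : Grp i R G) {g : Module.End F (Fin n → F)} (hg : g ∈ G)
    (hiso : ∀ u v, herm q (g u) (g v) = herm q u v) :
    ∃ k ∈ isoSub q hG, ∀ v, k.1 v = g v := by
  obtain ⟨g', -, h1, h2⟩ := hG.inv_mem _ hg
  let e : (Fin n → F) ≃ₗ[F] (Fin n → F) := LinearEquiv.ofLinear g g' h1 h2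
  refine ⟨⟨e, hiso⟩, ?_, fun v => rfl⟩
  rw [mem_isoSub]
  convert hg using 1
  exact LinearMap.ext fun v => rfl

theorem simil_const (hn : 1 ≤ n) (hU : Simil q G) {g : Module.End F (Fin n → F)} (hg : g ∈ G)
    {u : Fin n → F} (hu : herm q u u ≠ 0) (hgu : herm q (g u) (g u) = herm q u u)
    (v w : Fin n → F) : herm q (g v) (g w) = herm q v w := by
  obtain ⟨c, hc⟩ := hU g hg
  have : c = 1 := by
    have := hc u u
    rw [hgu] at this
    exact (mul_eq_right₀ hu).1 this.symm
  rw [hc, this, one_mul]

/-- An orthonormal parametrisation of the fixed space of an involution in `R`. -/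
theorem exists_param (hD : Data i R) (hR : Isom q R) {x a : Module.End F (Fin n → F)}
    (hxR : x ∈ R) (hx : x * x = 1) (haR : a ∈ R) (ha : a * a = 1) (hxa : x * a = -(a * x)) :
    ∃ (m : ℕ) (j : (Fin m → F) ≃ₗ[F] Eig x),
      n = 2 * m ∧ ∀ u v, herm q (j u : Fin n → F) (j v) = herm q u v := by
  obtain ⟨hfin, -⟩ := id hF
  have horth : ∀ u ∈ Eig x, ∀ v, x v = -v → herm q u v = 0 := by
    intro u hu v hv
    have h := hR x hxR u v
    rw [mem_eig.1 hu, hv, hF.herm_neg_right] at h
    exact (mul_eq_zero.1 (show (2 : F) * herm q u v = 0 by linear_combination -h)).resolve_left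
      hD.two_ne
  have hnd : ∀ u ∈ Eig x, (∀ y ∈ Eig x, herm q u y = 0) → u = 0 := by
    intro u hu h
    refine hF.eq_zero_of_herm u fun v => ?_
    have hv : v = (eigProj hD.two_ne x hx v : Fin n → F) + (2 : F)⁻¹ • (v - x v) := by
      rw [eigProj_coe, ← smul_add, show v + x v + (v - x v) = (2 : F) • v by module, smul_smul,
        inv_mul_cancel₀ hD.two_ne, one_smul]
    rw [hv, hF.herm_add_right, h _ (eigProj hD.two_ne x hx v).2, zero_add]
    refine horth u hu _ ?_
    rw [map_smul, map_sub, ← Module.End.mul_apply, hx, Module.End.one_apply, ← smul_neg, neg_sub]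
  obtain ⟨m, hm⟩ : ∃ m, finrank F (Eig x) = m := ⟨_, rfl⟩
  obtain ⟨b, l₀, hbS, -, hb⟩ := Elusive25.exists_orthonormal_eigen hF hD.two_ne
    (1 : Matrix (Fin n) (Fin n) F) (fun u v => by simp) (fun μ => μ = 1)
    (fun μ h => by rw [h, one_pow, one_mul]) m (Eig x) hm hnd
    (fun u hu => Submodule.subset_span ⟨hu, 1, rfl, by simp⟩)
  let L : (Fin m → F) →ₗ[F] Eig x := Fintype.linearCombination F (fun l => (⟨b l, hbS l⟩ : Eig x))
  have hL : ∀ u, (L u : Fin n → F) = ∑ l, u l • b l := fun u => by
    simp [L, Fintype.linearCombination_apply]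
  have hherm : ∀ u v, herm q (L u : Fin n → F) (L v) = herm q u v := by
    intro u v
    have hl : ∀ (s : Finset (Fin m)) (f : Fin m → Fin n → F) (w : Fin n → F),
        herm q (∑ l ∈ s, f l) w = ∑ l ∈ s, herm q (f l) w := fun s f w => by
      simp [herm_def, Finset.sum_apply, Finset.sum_mul]
      exact Finset.sum_comm
    have hr : ∀ (s : Finset (Fin m)) (f : Fin m → Fin n → F) (w : Fin n → F),
        herm q w (∑ l ∈ s, f l) = ∑ l ∈ s, herm q w (f l) := fun s f w => by
      simp [herm_def, Finset.sum_apply, hF.sum_pow, Finset.mul_sum]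
      exact Finset.sum_comm
    rw [hL, hL, hl, herm_def]
    refine Finset.sum_congr rfl fun l _ => ?_
    rw [herm_smul_left, hr]
    congr 1
    rw [Finset.sum_eq_single l (fun k _ hk => by rw [herm_smul_right, hb, if_neg (Ne.symm hk), mul_zero])
      (by simp), herm_smul_right, hb, if_pos rfl, mul_one]
  have hinj : Function.Injective L := by
    refine (injective_iff_map_eq_zero _).2 fun u hu => hF.eq_zero_of_herm u fun v => ?_
    rw [← hherm, hu]
    simp [herm_zero_left]
  refine ⟨m, LinearEquiv.ofBijective L ⟨hinj,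
    (LinearMap.injective_iff_surjective_of_finrank_eq_finrank
      (by rw [Module.finrank_fin_fun, hm])).1 hinj⟩, ?_, hherm⟩
  rw [← hm, two_mul_finrank_eig hD.two_ne hx ha hxa, Module.finrank_fin_fun]

theorem i_pow (hq : q % 4 = 3) (hi : i * i = -1) : i ^ q = -i := by
  obtain ⟨k, hk⟩ : ∃ k, q = 4 * k + 3 := ⟨q / 4, by omega⟩
  subst hk
  rw [pow_add, pow_mul, show i ^ 4 = 1 by linear_combination (i * i - 1) * hi, one_pow, one_mul]
  linear_combination i * hi

end Cfsg.Agent.MaxSub.CSixU
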