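import Cfsg.Agent.MaxSub.CSix.Core

/-!
Transport of symplectic-type data along an algebra equivalence of endomorphism rings.
-/

set_option autoImplicit false

namespace Cfsg.Agent.MaxSub.CSixU

open CSix

variable {F : Type*} [Field F] {V W : Type*} [AddCommGroup V] [Module F V] [AddCommGroup W]
  [Module F W] (ψ : Module.End F W ≃ₐ[F] Module.End F V)

theorem data_preimage {i : F} {R : Set (Module.End F V)} (h : Data i R) :
    Data i (ψ ⁻¹' R) where
  sq_i := h.sq_i
  two_ne := h.two_ne
  i_mem := by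
    rw [Set.mem_preimage, map_smul, map_one]
    exact h.i_mem
  mul_mem a ha b hb := by
    rw [Set.mem_preimage, map_mul]
    exact h.mul_mem _ ha _ hb
  comm_sign a ha b hb := (h.comm_sign _ ha _ hb).imp
    (fun e => ψ.injective (by rw [map_mul, map_mul, e]))
    (fun e => ψ.injective (by rw [map_mul, map_neg, map_mul, e]))
  sq_sign a ha := (h.sq_sign _ ha).imp
    (fun e => ψ.injective (by rw [map_mul, map_one, e]))
    (fun e => ψ.injective (by rw [map_mul, map_neg, map_one, e]))
  span_eq := by
    rw [eq_top_iff]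
    intro f _
    have h1 : ψ f ∈ Submodule.span F R := h.span_eq ▸ Submodule.mem_top
    have h2 := Submodule.mem_map_of_mem (f := ψ.symm.toLinearMap) h1
    rw [Submodule.map_span, AlgEquiv.toLinearMap_apply, AlgEquiv.symm_apply_apply] at h2
    refine Submodule.span_mono ?_ h2
    rintro _ ⟨r, hr, rfl⟩
    rw [Set.mem_preimage, AlgEquiv.toLinearMap_apply, AlgEquiv.apply_symm_apply]
    exact hr

theorem grp_preimage {i : F} {R G : Set (Module.End F V)} (h : Grp i R G) :
    Grp i (ψ ⁻¹' R) (ψ ⁻¹' G) where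
  inv_mem g hg := by
    obtain ⟨g', hg', h1, h2⟩ := h.inv_mem _ hg
    refine ⟨ψ.symm g', by rw [Set.mem_preimage, ψ.apply_symm_apply]; exact hg', ?_, ?_⟩ <;>
      refine ψ.injective ?_ <;> rw [map_mul, map_one, ψ.apply_symm_apply]
    · exact h1
    · exact h2
  mul_mem a ha b hb := by
    rw [Set.mem_preimage, map_mul]
    exact h.mul_mem _ ha _ hb
  smul_mem c hc := by
    rw [Set.mem_preimage, map_smul, map_one]
    exact h.smul_mem c hc
  sub := Set.preimage_mono h.sub
  t_mem y hy hyy := by
    rw [Set.mem_preimage, map_add, map_smul, map_one]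
    exact h.t_mem _ hy (by rw [← map_mul, hyy, map_one])

theorem nrm_preimage_iff {R : Set (Module.End F V)} {g : Module.End F W} :
    Nrm (ψ ⁻¹' R) g ↔ Nrm R (ψ g) := by
  constructor
  · intro h a ha
    obtain ⟨a', ha', e⟩ := h (ψ.symm a) (by rw [Set.mem_preimage, ψ.apply_symm_apply]; exact ha)
    refine ⟨ψ a', ha', ?_⟩
    have := congrArg ψ e
    rwa [map_mul, map_mul, ψ.apply_symm_apply] at this
  · intro h a ha
    obtain ⟨a', ha', e⟩ := h _ ha
    refine ⟨ψ.symm a', by rw [Set.mem_preimage, ψ.apply_symm_apply]; exact ha', ψ.injective ?_⟩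
    rw [map_mul, map_mul, ψ.apply_symm_apply, e]

end Cfsg.Agent.MaxSub.CSixU
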