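import Cfsg.Agent.MaxSub.CSixU.Block
import Cfsg.Agent.MaxSub.CSixU.Det
import Cfsg.Agent.MaxSub.FormTools
import Cfsg.Agent.MaxSub.SymplecticType

/-!
Maximality of the normaliser in `SU_n(p)` of a 2-group of symplectic type with centre of order
four, from the dichotomy "normalises `R` or contains all transvections".
-/

set_option autoImplicit false
set_option linter.unusedSectionVars false

namespace Cfsg.Agent.MaxSub.CSixU

open Classical.U DecompMax.UN CSix Module
open scoped MatrixGroups

universe u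

variable {F : Type u} [Field F] {n q : ℕ}

/-- The dichotomy in degree `n`. -/
def Dichotomy (n : ℕ) (F : Type u) [Field F] (q : ℕ) (hF : SqField F q) : Prop :=
  ∀ (i : F) (R G : Set (Module.End F (Fin n → F))), Data i R → ∀ hG : Grp i R G,
    Isom q R → Simil q G → (∀ g ∈ G, Nrm R g) ∨ AllTrv hF hG

/-- A matrix as an endomorphism. -/
noncomputable abbrev toEnd (g : GL (Fin n) F) : Module.End F (Fin n → F) :=
  Matrix.toLinAlgEquiv' (g : Matrix (Fin n) (Fin n) F)

theorem toEnd_apply (g : GL (Fin n) F) (v : Fin n → F) :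
    toEnd g v = Matrix.mulVec (g : Matrix (Fin n) (Fin n) F) v := rfl

theorem toEnd_mul (g h : GL (Fin n) F) : toEnd (g * h) = toEnd g * toEnd h := by
  simp [toEnd]

theorem toEnd_one : toEnd (1 : GL (Fin n) F) = 1 := by simp [toEnd]

theorem toEnd_injective : Function.Injective (toEnd (n := n) (F := F)) :=
  fun _ _ h => Units.ext (Matrix.toLinAlgEquiv'.injective h)

theorem det_toEnd (g : GL (Fin n) F) :
    LinearMap.det (toEnd g) = (g : Matrix (Fin n) (Fin n) F).det :=
  LinearMap.det_toLin' _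

theorem negsm (f : Module.End F (Fin n → F)) : (-1 : F) • f = -f :=
  LinearMap.ext fun v => by simp

variable [Fintype F] (hF : SqField F q)
include hF

/-- The endomorphisms of a symplectic-type group with centre of order four. -/
theorem data_of_symplecticType (hn : 1 ≤ n) (h2 : (2 : F) ≠ 0)
    {R : Subgroup (GL (Fin n) F)} (hst : Geo.IsSymplecticTypeGroup 2 R)
    (hirr : Geo.ActsAbsolutelyIrreducibly (Geo.matrixSet R)) (hZ : Nat.card (Subgroup.center R) = 4) :
    ∃ i : F, Data i (toEnd '' (R : Set (GL (Fin n) F))) ∧ commutator R ≤ Subgroup.center R := by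
  classical
  haveI : Nonempty (Fin n) := ⟨⟨0, hn⟩⟩
  haveI : Fact (Nat.Prime 2) := ⟨Nat.prime_two⟩
  haveI : Group.IsNilpotent R := hst.pGroup.isNilpotent
  have hexp : Monoid.exponent R = 4 := by rw [hst.exponent_eq]; rfl
  have hcl : commutator R ≤ Subgroup.center R :=
    commutator_le_center_of_cyclic_char hst.cyclic_of_characteristic (by rw [hexp, hZ])
  have hscal := fun z hz => exists_scalar_of_mem_center hirr (z := z) hz
  choose c hc using fun z : Subgroup.center R => hscal z.1 z.2
  have hone : ∀ {a b : F}, (a • (1 : Matrix (Fin n) (Fin n) F)) = b • 1 → a = b := by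
    intro a b h
    have := congrFun (congrFun h ⟨0, hn⟩) ⟨0, hn⟩
    simpa using this
  have hpow4 : ∀ r : R, r ^ 4 = 1 := fun r => hexp ▸ Monoid.pow_exponent_eq_one r
  have hc4 : ∀ z, c z ^ 4 = 1 := by
    intro z
    have h1 := congrArg (fun r : R => ((r : GL (Fin n) F) : Matrix (Fin n) (Fin n) F)) (hpow4 z.1)
    simp only [SubmonoidClass.coe_pow, Units.val_pow_eq_pow_val, OneMemClass.coe_one,
      Units.val_one, hc, smul_pow, one_pow] at h1
    exact hone (h1.trans (one_smul F _).symm)
  have hcinj : Function.Injective c := fun z w h => by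
    refine Subtype.ext (Subtype.ext (Units.ext ?_))
    rw [hc, hc, h]
  -- a square root of `-1`
  obtain ⟨z₀, hz₀⟩ : ∃ z, c z * c z = -1 := by
    by_contra hcon
    push Not at hcon
    have hsq : ∀ z, c z = 1 ∨ c z = -1 := fun z =>
      mul_self_eq_one_iff.1 (((mul_self_eq_one_iff.1 (show (c z * c z) * (c z * c z) = 1 by
        rw [← hc4 z]; ring))).resolve_right (hcon z))
    let φ : Subgroup.center R → Bool := fun z => decide (c z = 1)
    have hne : (-1 : F) ≠ 1 := fun e => h2 (by linear_combination -e)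
    have hφ : Function.Injective φ := fun z w h => hcinj (by
      rcases hsq z with h1 | h1 <;> rcases hsq w with h2' | h2' <;> rw [h1, h2'] <;>
        simp [φ, h1, h2', hne] at h)
    have := Nat.card_le_card_of_injective φ hφ
    rw [hZ, Nat.card_eq_fintype_card, Fintype.card_bool] at this
    omega
  refine ⟨c z₀, ?_, hcl⟩
  have hRmul : ∀ a ∈ toEnd '' (R : Set (GL (Fin n) F)), ∀ b ∈ toEnd '' (R : Set (GL (Fin n) F)),
      a * b ∈ toEnd '' (R : Set (GL (Fin n) F)) := by
    rintro _ ⟨a, ha, rfl⟩ _ ⟨b, hb, rfl⟩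
    exact ⟨a * b, R.mul_mem ha hb, toEnd_mul a b⟩
  -- commutators
  have hsign : ∀ a b : R, ∃ s : F, (s = 1 ∨ s = -1) ∧
      ((a * b : R) : GL (Fin n) F).1 = s • ((b * a : R) : GL (Fin n) F).1 := by
    intro a b
    have hz : a * b * a⁻¹ * b⁻¹ ∈ Subgroup.center R := hcl (by
      rw [commutator_def]
      simpa [commutatorElement_def] using
        Subgroup.commutator_mem_commutator (Subgroup.mem_top a) (Subgroup.mem_top b))
    set z : Subgroup.center R := ⟨_, hz⟩ with hzdef
    have hab : a * b = z.1 * (b * a) := by rw [hzdef]; group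
    refine ⟨c z, ?_, ?_⟩
    · have hzc : ∀ x : R, Commute z.1 x := fun x => (Subgroup.mem_center_iff.1 z.2 x).symm
      have key : (a * b) ^ 4 = a ^ 4 * b ^ 4 * (z.1⁻¹) ^ 6 := by
        have hba : b * a = z.1⁻¹ * (a * b) := by rw [hab, inv_mul_cancel_left]
        have hw : ∀ x : R, Commute z.1⁻¹ x := fun x => (hzc x).inv_left
        have e : ∀ x y : R, (x * b) * (a * y) = z.1⁻¹ * ((x * a) * (b * y)) := fun x y => by
          rw [mul_assoc x b, ← mul_assoc b a, hba, mul_assoc z.1⁻¹, ← mul_assoc x, ← (hw x).eq]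
          simp only [mul_assoc]
        have h1 : b ^ 2 * a ^ 2 = (z.1⁻¹) ^ 4 * (a ^ 2 * b ^ 2) := by
          have hb1 : b * a ^ 2 = (z.1⁻¹) ^ 2 * (a ^ 2 * b) := by
            rw [pow_two a, ← mul_assoc, hba, mul_assoc z.1⁻¹, mul_assoc a b a, hba,
              ← mul_assoc a z.1⁻¹, ← (hw a).eq, pow_two]
            simp only [mul_assoc]
          rw [pow_two b, mul_assoc, hb1, ← mul_assoc b, ← ((hw b).pow_left 2).eq, mul_assoc,
            ← mul_assoc b (a ^ 2), hb1, show (4 : ℕ) = 2 + 2 from rfl, pow_add]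
          simp only [mul_assoc]
        have h2' : (a * b) ^ 2 = z.1⁻¹ * (a ^ 2 * b ^ 2) := by
          rw [pow_two, e a b, pow_two, pow_two]
        rw [show (4 : ℕ) = 2 * 2 from rfl, pow_mul, h2', (hw _).mul_pow,
          pow_two (a ^ 2 * b ^ 2), mul_assoc (a ^ 2), ← mul_assoc (b ^ 2) (a ^ 2), h1,
          ← mul_assoc (a ^ 2), ← mul_assoc (a ^ 2), ← ((hw (a ^ 2)).pow_left 4).eq]
        simp only [← mul_assoc, ← pow_add]
        rw [mul_assoc _ (a ^ 2) (a ^ 2), mul_assoc _ (b ^ 2) (b ^ 2), ← pow_add, ← pow_add,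
          mul_assoc, ((hw _).pow_left _).eq]
      rw [hpow4, hpow4, hpow4, one_mul, one_mul] at key
      have hz6 : z.1 ^ 2 = 1 := by
        have h6 : z.1 ^ 6 = 1 := by rw [← inv_inj, ← inv_pow, inv_one]; exact key.symm
        rwa [show (6 : ℕ) = 4 + 2 from rfl, pow_add, hpow4, one_mul] at h6
      have h1 := congrArg (fun r : R => ((r : GL (Fin n) F) : Matrix (Fin n) (Fin n) F)) hz6
      simp only [SubmonoidClass.coe_pow, Units.val_pow_eq_pow_val, OneMemClass.coe_one,
        Units.val_one, hc, smul_pow, one_pow] at h1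
      exact mul_self_eq_one_iff.1 (by rw [← pow_two]; exact hone (h1.trans (one_smul F _).symm))
    · rw [hab, Subgroup.coe_mul, Units.val_mul, hc, smul_mul_assoc, one_mul]
  refine ⟨hz₀, h2, ⟨(z₀.1 : GL (Fin n) F), z₀.1.2, ?_⟩, hRmul, ?_, ?_, ?_⟩
  · show Matrix.toLinAlgEquiv' ((z₀.1 : GL (Fin n) F) : Matrix (Fin n) (Fin n) F) = _
    rw [hc, map_smul, map_one]
  · rintro _ ⟨a, ha, rfl⟩ _ ⟨b, hb, rfl⟩
    obtain ⟨s, hs, e⟩ := hsign ⟨a, ha⟩ ⟨b, hb⟩
    have e' : toEnd a * toEnd b = s • (toEnd b * toEnd a) := by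
      rw [← toEnd_mul, ← toEnd_mul, toEnd, toEnd, ← map_smul]
      exact congrArg _ e
    rcases hs with rfl | rfl
    · exact Or.inl (by rw [e', one_smul])
    · exact Or.inr (by rw [e', negsm])
  · rintro _ ⟨a, ha, rfl⟩
    -- squares are central
    have hza : (⟨a, ha⟩ : R) ^ 2 ∈ Subgroup.center R := by
      rw [Subgroup.mem_center_iff]
      intro b
      obtain ⟨s, hs, e⟩ := hsign ⟨a, ha⟩ b
      refine Subtype.ext (Units.ext ?_)
      have hss : s * s = 1 := by rcases hs with rfl | rfl <;> ring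
      simp only [Subgroup.coe_mul, Units.val_mul, pow_two] at e ⊢
      calc ((b : GL (Fin n) F) : Matrix (Fin n) (Fin n) F) *
            ((a : Matrix (Fin n) (Fin n) F) * (a : Matrix (Fin n) (Fin n) F))
          = (s * s) • (((b : GL (Fin n) F) : Matrix (Fin n) (Fin n) F) *
            (a : Matrix (Fin n) (Fin n) F) * (a : Matrix (Fin n) (Fin n) F)) := by
              rw [hss, one_smul, mul_assoc]
        _ = (a : Matrix (Fin n) (Fin n) F) * (s • (((b : GL (Fin n) F) :
            Matrix (Fin n) (Fin n) F) * (a : Matrix (Fin n) (Fin n) F))) := by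
              rw [mul_smul_comm, ← mul_assoc, e, smul_mul_assoc, smul_smul]
        _ = _ := by rw [← e, mul_assoc]
    have h1 := hc ⟨_, hza⟩
    have h4 := hc4 ⟨_, hza⟩
    have hsq : toEnd a * toEnd a = c ⟨_, hza⟩ • 1 := by
      rw [← toEnd_mul, toEnd, ← pow_two]
      simp only [SubmonoidClass.coe_pow] at h1
      rw [h1, map_smul, map_one]
    have hs2 : c ⟨_, hza⟩ * c ⟨_, hza⟩ = 1 := by
      have h5 := congrArg (fun r : R => ((r : GL (Fin n) F) : Matrix (Fin n) (Fin n) F))
        (hpow4 ⟨a, ha⟩)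
      simp only [SubmonoidClass.coe_pow, OneMemClass.coe_one, Units.val_one] at h5 h1
      rw [show (4 : ℕ) = 2 * 2 from rfl, pow_mul, Units.val_pow_eq_pow_val, h1, smul_pow,
        one_pow, pow_two] at h5
      exact hone (h5.trans (one_smul F _).symm)
    rcases mul_self_eq_one_iff.1 hs2 with h | h <;> rw [hsq, h]
    · exact Or.inl (one_smul F _)
    · exact Or.inr (by rw [negsm])
  · have hs := GeoClasses.spanAlg_toSubmodule (F := F) R
    rw [GeoClasses.spanAlg_eq_top hirr, Algebra.top_toSubmodule] at hs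
    rw [show toEnd '' (R : Set (GL (Fin n) F)) =
        (Matrix.toLinAlgEquiv' (R := F) (n := Fin n)).toLinearMap '' Geo.matrixSet R by
          rw [Geo.matrixSet, Set.image_image]; rfl,
      ← Submodule.map_span, ← hs, Submodule.map_top, LinearMap.range_eq_top]
    exact (Matrix.toLinAlgEquiv' (R := F) (n := Fin n)).surjective

/-- What has to be known about the groups between the normaliser and the whole group: `G` is such a
group together with the scalars, containing `R` and all products of two quarter turns, and single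
quarter turns when these can be scaled into the special unitary group. -/
def Between (n : ℕ) (F : Type u) [Field F] (q : ℕ) (hF : SqField F q) : Prop :=
  ∀ (i : F) (R G : Set (Module.End F (Fin n → F))), Data i R → Isom q R → Simil q G →
    (∀ g ∈ G, ∃ g' ∈ G, g * g' = 1 ∧ g' * g = 1) → (∀ a ∈ G, ∀ b ∈ G, a * b ∈ G) →
    (∀ c : F, c ≠ 0 → c • (1 : Module.End F (Fin n → F)) ∈ G) → R ⊆ G →
    (∀ x ∈ R, ∀ y ∈ R, x * x = 1 → y * y = 1 → NS x → NS y →
      (1 + i • x) * (1 + i • y) ∈ G) →
    ((∃ l : F, l * l ^ q = 1 ∧ l ^ n * (-i) ^ (n / 2) = 1) →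
      ∀ y ∈ R, y * y = 1 → 1 + i • y ∈ G) →
    (∀ g ∈ G, Nrm R g) ∨ ∀ (e : Fin n → F) (a : F) (h : TrvCond q e a),
      ((trv hF h).1 : Module.End F (Fin n → F)) ∈ G

/-- A transvection does not normalise `R`. -/
theorem exists_trv_not_nrm [DecidableEq F] (hq4 : q % 4 = 3) {i : F}
    {R : Set (Module.End F (Fin n → F))} (hn : 4 ≤ n) (hD : Data i R) (hR : Isom q R) :
    ∃ (e : Fin n → F) (a : F) (h : TrvCond q e a),
      ¬ Nrm R ((trv hF h).1 : Module.End F (Fin n → F)) := by
  haveI : Nonempty (Fin n) := ⟨⟨0, by omega⟩⟩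
  obtain ⟨x, hxR, hx, hns⟩ : ∃ x ∈ R, x * x = 1 ∧ NS x := by
    obtain ⟨r, hr, hrns⟩ : ∃ r ∈ R, NS r := by
      by_contra hcon
      push Not at hcon
      have hle : Submodule.span F R ≤ F ∙ (1 : Module.End F (Fin n → F)) :=
        Submodule.span_le.2 fun b hb => by
          by_contra h
          exact hcon b hb fun c hc =>
            h (hc ▸ Submodule.smul_mem _ c (Submodule.mem_span_singleton_self _))
      rw [hD.span_eq] at hle
      have h1 : finrank F (⊤ : Submodule F (Module.End F (Fin n → F))) ≤ 1 :=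
        (Submodule.finrank_mono hle).trans (finrank_span_singleton one_ne_zero).le
      rw [finrank_top, Module.finrank_linearMap, Module.finrank_fin_fun] at h1
      have : 4 * 4 ≤ n * n := Nat.mul_le_mul hn hn
      omega
    obtain ⟨c, hc, hcm, hcs⟩ := hD.exists_sq_one hr
    exact ⟨_, hcm, hcs, hrns.smul hc⟩
  obtain ⟨a₀, haR, ha, hxa⟩ := hD.exists_anticomm hxR hns
  obtain ⟨m, j, hm, hj⟩ := exists_param hF hD hR hxR hx haR ha hxa
  obtain ⟨k, rfl⟩ := Nat.exists_eq_add_of_le' (show 2 ≤ m by omega)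
  obtain ⟨θ, l, hp, -⟩ := exists_std_pair hF k
  set u : Fin (k + 2) → F := Pi.single 0 1 + θ • Pi.single 1 1
  have hu0 : u ≠ 0 := hp.ne_zero
  obtain ⟨d, hd, hdq⟩ := hF.exists_skew
  have hxv : ∀ w, x (x w) = w := fun w => by
    simpa using congrArg (fun g : Module.End F (Fin n → F) => g w) hx
  have haa : ∀ w, a₀ (a₀ w) = w := fun w => by
    simpa using congrArg (fun g : Module.End F (Fin n → F) => g w) ha
  have hxj : x (j u : Fin n → F) = (j u : Fin n → F) := mem_eig.1 (j u).2
  set p₀ : Fin n → F := (j u : Fin n → F) with hp₀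
  have hxap : x (a₀ p₀) = -a₀ p₀ := by
    have := congrArg (fun g : Module.End F (Fin n → F) => g p₀) hxa
    simpa [hxj] using this
  have hpp : herm q p₀ p₀ = 0 := by rw [hp₀, hj]; exact hp.1
  have hpa : herm q p₀ (a₀ p₀) = 0 := by
    have h := hR x hxR p₀ (a₀ p₀)
    rw [hxj, hxap, hF.herm_neg_right] at h
    exact (mul_eq_zero.1 (show (2 : F) * herm q p₀ (a₀ p₀) = 0 by
      linear_combination -h)).resolve_left hD.two_ne
  have hap : herm q (a₀ p₀) p₀ = 0 := by rw [← hF.herm_symm, hpa, zero_pow hF.q_ne_zero]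
  have haa' : herm q (a₀ p₀) (a₀ p₀) = 0 := by rw [hR a₀ haR]; exact hpp
  set v := p₀ + a₀ p₀ with hv
  set v' := p₀ - a₀ p₀ with hv'
  have hxv' : x v = v' := by rw [hv, map_add, hxj, hxap, hv', sub_eq_add_neg]
  have hxv'' : x v' = v := by rw [← hxv', hxv]
  have hvv : herm q v v = 0 := by
    rw [hv, herm_add_left, hF.herm_add_right, hF.herm_add_right, hpp, hpa, hap, haa']; ring
  have hvv' : herm q v v' = 0 := by
    rw [hv, hv', herm_add_left, hF.herm_sub_right, hF.herm_sub_right, hpp, hpa, hap, haa']; ring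
  have hp0 : p₀ ≠ 0 := fun h => hu0 (j.injective (Subtype.ext (by
    rw [map_zero, ZeroMemClass.coe_zero]; exact h)))
  refine ⟨v, d, ⟨hvv, hdq⟩, fun hN => ?_⟩
  set t := ((trv hF (show TrvCond q v d from ⟨hvv, hdq⟩)).1 : Module.End F (Fin n → F)) with ht
  have htw : ∀ w, t w = w + (d * herm q w v) • v := fun w => trv_apply hF _ w
  obtain ⟨r, hr, hrt⟩ := hN x hxR
  set s := r * x with hs
  set D : (Fin n → F) → (Fin n → F) :=
    fun w => (d * herm q w v) • v - (d * herm q w v') • v' with hDdef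
  have hsw : ∀ w, s w = w + D w := fun w => by
    have e1 : w = t (w - (d * herm q w v) • v) := by
      rw [htw, herm_sub_left, herm_smul_left, hvv, mul_zero, sub_zero, sub_add_cancel]
    have h3 := fun w => congrArg (fun g : Module.End F (Fin n → F) => g w) hrt
    simp only [Module.End.mul_apply] at h3
    have hxw : herm q (x w) v = herm q w v' := by
      rw [← hxv'', hR x hxR]
    rw [hs, Module.End.mul_apply]
    conv_lhs => rw [show x w = t (x w - (d * herm q (x w) v) • v) by
      rw [htw, herm_sub_left, herm_smul_left, hvv, mul_zero, sub_zero, sub_add_cancel]]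
    rw [← h3, map_sub, map_smul, hxv, hxv', htw, herm_sub_left, herm_smul_left, hxw,
      ← hF.herm_symm v v', hvv', zero_pow hF.q_ne_zero, hDdef]
    module
  have hDadd : ∀ w, D (D w) = 0 := fun w => by
    simp only [hDdef, herm_sub_left, herm_smul_left, hvv, ← hF.herm_symm v v', hvv',
      zero_pow hF.q_ne_zero]
    have e2 : herm q v' v' = 0 := by rw [← hxv', hR x hxR]; exact hvv
    simp [e2]
  have hss : ∀ w, s (s w) = w + (2 : F) • D w := fun w => by
    rw [hsw, hsw w, two_smul]
    have : D (w + D w) = D w := by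
      have h := hDadd w
      simp only [hDdef, herm_add_left, mul_add, add_smul] at h ⊢
      linear_combination (norm := module) h
    rw [this]; abel
  have hD0 : ∀ w, D w = 0 := by
    intro w
    rcases hD.sq_sign s (hD.mul_mem _ hr _ hxR) with h | h
    · have := congrArg (fun g : Module.End F (Fin n → F) => g w) h
      simp only [Module.End.mul_apply, Module.End.one_apply, hss, add_eq_left] at this
      exact (smul_eq_zero.1 this).resolve_left hD.two_ne
    · exfalso
      have := congrArg (fun g : Module.End F (Fin n → F) => g v) h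
      simp only [Module.End.mul_apply, LinearMap.neg_apply, Module.End.one_apply, hss, hDdef,
        hvv, hvv', mul_zero, zero_smul, sub_zero, smul_zero, add_zero] at this
      rw [eq_neg_iff_add_eq_zero, ← two_smul F] at this
      have hv0 : v = 0 := (smul_eq_zero.1 this).resolve_left hD.two_ne
      have h' := congrArg x hv0
      rw [hxv', map_zero] at h'
      refine hp0 ((smul_eq_zero.1 (show (2 : F) • p₀ = 0 by
        rw [two_smul, ← add_zero (0 : Fin n → F)]
        nth_rewrite 1 [← hv0]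
        rw [← h', hv, hv']; abel)).resolve_left hD.two_ne)
  obtain ⟨w, hw⟩ : ∃ w, herm q w v ≠ 0 := by
    by_contra hcon
    push Not at hcon
    refine hp0 ?_
    have hv0 : v = 0 := hF.eq_zero_of_herm v fun w => by
      rw [← hF.herm_symm, hcon, zero_pow hF.q_ne_zero]
    have h' := congrArg x hv0
    rw [hxv', map_zero] at h'
    exact (smul_eq_zero.1 (show (2 : F) • p₀ = 0 by
      rw [two_smul, ← add_zero (0 : Fin n → F)]
      nth_rewrite 1 [← hv0]
      rw [← h', hv, hv']; abel)).resolve_left hD.two_ne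
  have h := hD0 w
  rw [hDdef] at h
  have hx' := congrArg x h
  simp only [map_sub, map_smul, hxv', hxv'', map_zero] at hx' h
  have e : ((d * herm q w v) + (d * herm q w v')) • (v - v') = 0 := by
    linear_combination (norm := module) h - hx'
  have e' : ((d * herm q w v) - (d * herm q w v')) • (v + v') = 0 := by
    linear_combination (norm := module) h + hx'
  have n1 : v - v' ≠ 0 := by
    intro h0
    rw [hv, hv', show p₀ + a₀ p₀ - (p₀ - a₀ p₀) = (2 : F) • a₀ p₀ by module] at h0
    have := congrArg a₀ ((smul_eq_zero.1 h0).resolve_left hD.two_ne)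
    rw [haa, map_zero] at this
    exact hp0 this
  have n2 : v + v' ≠ 0 := by
    intro h0
    rw [hv, hv', show p₀ + a₀ p₀ + (p₀ - a₀ p₀) = (2 : F) • p₀ by module] at h0
    exact hp0 ((smul_eq_zero.1 h0).resolve_left hD.two_ne)
  have a1 := (smul_eq_zero.1 e).resolve_right n1
  have a2 := (smul_eq_zero.1 e').resolve_right n2
  exact mul_ne_zero hD.two_ne (mul_ne_zero hd hw) (by linear_combination a1 + a2)

/-- Maximality from a property of the groups in between. -/
theorem suGL_normalizer_maximal_of (hq : q.Prime) (hq4 : q % 4 = 3) (hn : 4 ≤ n) (hn4 : 4 ∣ n)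
    (hnq : ¬ q ∣ n) (hbet : Between n F q hF)
    {R : Subgroup (GL (Fin n) F)} (hst : Geo.IsSymplecticTypeGroup 2 R)
    (hirr : Geo.ActsAbsolutelyIrreducibly (Geo.matrixSet R)) (hRU : R ≤ Cfsg.GU n F q)
    (hZ : Nat.card (Subgroup.center R) = 4) :
    Geo.IsMaximalIn (Cfsg.GU n F q ⊓ Geo.specialLinear (Fin n) F)
      (Geo.subgroupNormalizer R ⊓ (Cfsg.GU n F q ⊓ Geo.specialLinear (Fin n) F)) := by
  classical
  haveI : Nonempty (Fin n) := ⟨⟨0, by omega⟩⟩
  have hq2 : q ≠ 2 := by omega
  have := char_eq_of_prime hF hq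
  have h2 : (2 : F) ≠ 0 := by
    intro h
    have : q ∣ 2 := (CharP.cast_eq_zero_iff F q 2).1 (by exact_mod_cast h)
    exact hq2 ((Nat.prime_dvd_prime_iff_eq hq Nat.prime_two).1 this)
  obtain ⟨i, hD, hcl⟩ := data_of_symplecticType hF (by omega) h2 hst hirr hZ
  have hi := hD.sq_i
  obtain ⟨hi1, hnorm, hquot⟩ := isoSub_frame_data hF hi h2 hq4
  set S := Cfsg.GU n F q ⊓ Geo.specialLinear (Fin n) F with hSdef
  set RE := toEnd '' (R : Set (GL (Fin n) F)) with hRE
  have hRiso : Isom q RE := by
    rintro _ ⟨r, hr, rfl⟩ u v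
    exact hRU hr u v
  have hnle : ¬ S ≤ Geo.subgroupNormalizer R := by
    intro hle
    obtain ⟨e, a, hc, hnot⟩ := exists_trv_not_nrm hF hq4 hn hD hRiso
    set g := (glEquiv n F).symm (trv hF hc).1 with hgdef
    have hgv : ∀ w, Matrix.mulVec (g : Matrix (Fin n) (Fin n) F) w = (trv hF hc).1 w := fun w => by
      rw [← glEquiv_apply, hgdef, MulEquiv.apply_symm_apply]
    have hgS : g ∈ S := by
      refine ⟨fun u v => ?_, ?_⟩
      · show herm q (Matrix.mulVec (g : Matrix (Fin n) (Fin n) F) u)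
          (Matrix.mulVec (g : Matrix (Fin n) (Fin n) F) v) = herm q u v
        rw [hgv, hgv]; exact UG_app _ u v
      · change Matrix.GeneralLinearGroup.det g = 1
        rw [← det_glEquiv, hgdef, MulEquiv.apply_symm_apply]
        exact mem_SUG.1 (TG_le_SUG hF (trv_mem hF hc))
    refine hnot ?_
    rintro _ ⟨r, hr, rfl⟩
    have hg' : ((trv hF hc).1 : Module.End F (Fin n → F)) = toEnd g :=
      LinearMap.ext fun w => by rw [toEnd_apply, hgv]; rfl
    refine ⟨toEnd (g * r * g⁻¹), ⟨_, ?_, rfl⟩, ?_⟩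
    · exact (Subgroup.mem_set_normalizer_iff.1 (hle hgS) r).1 hr
    · rw [hg', ← toEnd_mul, ← toEnd_mul, inv_mul_cancel_right]
  refine ⟨lt_of_le_not_ge inf_le_right fun h => hnle (le_inf_iff.1 h).1, ?_⟩
  intro H hNH hHS
  by_cases hN : H ≤ Geo.subgroupNormalizer R
  · exact Or.inl (le_antisymm (le_inf hN hHS) hNH)
  right
  -- the group `G`
  set G : Set (Module.End F (Fin n → F)) := {f | ∃ c : F, c ≠ 0 ∧ ∃ h ∈ H, f = c • toEnd h}
    with hGdef
  have hmulS : ∀ (c d : F) (g h : GL (Fin n) F),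
      (c • toEnd g) * (d • toEnd h) = (c * d) • toEnd (g * h) := fun c d g h => by
    rw [smul_mul_smul_comm, toEnd_mul]
  have hGmul : ∀ a ∈ G, ∀ b ∈ G, a * b ∈ G := by
    rintro _ ⟨c, hc, g, hg, rfl⟩ _ ⟨d, hd, h, hh, rfl⟩
    exact ⟨c * d, mul_ne_zero hc hd, g * h, H.mul_mem hg hh, hmulS c d g h⟩
  have hGscal : ∀ c : F, c ≠ 0 → c • (1 : Module.End F (Fin n → F)) ∈ G := fun c hc =>
    ⟨c, hc, 1, H.one_mem, by rw [toEnd_one]⟩
  have hRdet : ∀ r ∈ RE, r * r = 1 → NS r →
      LinearMap.det ((1 + i)⁻¹ • (1 + i • r)) = (-i) ^ (n / 2) ∧ LinearMap.det r = 1 := by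
    intro r hr hrr hns
    obtain ⟨a, haRE, ha, hra⟩ := hD.exists_anticomm hr hns
    obtain ⟨m, j, hnm, -⟩ := exists_param hF hD hRiso hr hrr haRE ha hra
    obtain ⟨k, hk⟩ := hn4
    have hm : finrank F (Eig r) = 2 * k := by
      rw [← j.finrank_eq, Module.finrank_fin_fun]; omega
    refine ⟨?_, ?_⟩
    · rw [det_of_eigen h2 hrr ha hra (α := 1) (β := -i)
        (fun v hv => by
          simp only [LinearMap.smul_apply, LinearMap.add_apply, Module.End.one_apply, hv]
          rw [show v + i • v = (1 + i) • v by module, smul_smul, inv_mul_cancel₀ hi1])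
        (fun v hv => by
          simp only [LinearMap.smul_apply, LinearMap.add_apply, Module.End.one_apply, hv, smul_neg]
          rw [show v + -(i • v) = (1 - i) • v by module, smul_smul, hquot]),
        one_pow, one_mul, hm, show n / 2 = 2 * k by omega]
    · rw [det_of_eigen h2 hrr ha hra (α := 1) (β := -1)
        (fun v hv => by rw [hv, one_smul]) (fun v hv => by rw [hv, neg_smul, one_smul]),
        one_pow, one_mul, hm, pow_mul, neg_one_sq, one_pow]
  -- `H` contains the quarter turns and, up to scalars, `R`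
  have hNmem : ∀ (f : Module.End F (Fin n → F)), IsUnit f → LinearMap.det f = 1 →
      (∀ u v, herm q (f u) (f v) = herm q u v) → Nrm RE f →
      ∃ h ∈ H, toEnd h = f := by
    intro f hf hdet hiso hnrm
    obtain ⟨fu, hfu⟩ := hf
    set g : GL (Fin n) F := Units.map (Matrix.toLinAlgEquiv' (R := F) (n := Fin n)).symm.toMonoidHom fu
      with hgdef
    have hge : toEnd g = f := by
      rw [← hfu, hgdef]
      exact (Matrix.toLinAlgEquiv' (R := F) (n := Fin n)).apply_symm_apply _
    refine ⟨g, hNH ⟨?_, ?_, ?_⟩, hge⟩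
    · refine Subgroup.mem_normalizer_fintype fun r hr => ?_
      obtain ⟨_, ⟨r', hr', rfl⟩, e⟩ := hnrm _ ⟨r, hr, rfl⟩
      have : g * r = r' * g := toEnd_injective (by rw [toEnd_mul, toEnd_mul, hge, e])
      rw [this, mul_inv_cancel_right]
      exact hr'
    · intro u v
      have := hiso u v
      rw [← hge, toEnd_apply, toEnd_apply] at this
      exact this
    · change Matrix.GeneralLinearGroup.det g = 1
      refine Units.ext ?_
      rw [Matrix.GeneralLinearGroup.val_det_apply, Units.val_one, ← det_toEnd, hge, hdet]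
  have hGinv : ∀ g ∈ G, ∃ g' ∈ G, g * g' = 1 ∧ g' * g = 1 := by
    rintro _ ⟨c, hc, h, hh, rfl⟩
    refine ⟨c⁻¹ • toEnd h⁻¹, ⟨c⁻¹, inv_ne_zero hc, h⁻¹, H.inv_mem hh, rfl⟩, ?_, ?_⟩
    · rw [hmulS, mul_inv_cancel₀ hc, mul_inv_cancel, toEnd_one, one_smul]
    · rw [hmulS, inv_mul_cancel₀ hc, inv_mul_cancel, toEnd_one, one_smul]
  have hGsub : RE ⊆ G := by
    intro r hr
    by_cases hns : NS r
    · obtain ⟨c, hc, hcm, hcs⟩ := hD.exists_sq_one hr
      set y := c • r with hy
      have hyns : NS y := hns.smul hc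
      obtain ⟨h, hh, hhy⟩ := hNmem y ⟨⟨y, y, hcs, hcs⟩, rfl⟩
        (hRdet y hcm hcs hyns).2 (hRiso y hcm)
        (fun a ha => by
          rcases hD.comm_sign y hcm a ha with e | e
          · exact ⟨a, ha, e⟩
          · exact ⟨-a, hD.neg_mem ha, LinearMap.ext fun v => by simp [e]⟩)
      refine ⟨c⁻¹, inv_ne_zero hc, h, hh, ?_⟩
      rw [hhy, hy, smul_smul, inv_mul_cancel₀ hc, one_smul]
    · simp only [NS, not_forall, not_not] at hns
      obtain ⟨c, rfl⟩ := hns
      refine hGscal c ?_
      rintro rfl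
      have hu := hD.isUnit hr
      rw [zero_smul] at hu
      exact not_isUnit_zero hu
  -- the quarter turns
  set τ : Module.End F (Fin n → F) → Module.End F (Fin n → F) :=
    fun y => (1 + i)⁻¹ • (1 + i • y) with hτ
  have hturn : ∀ y ∈ RE, y * y = 1 → IsUnit (τ y) ∧ Nrm RE (τ y) ∧
      ∀ u v, herm q (τ y u) (τ y v) = herm q u v := by
    intro y hy hyy
    set t := τ y with ht'
    have ht : t = (1 + i)⁻¹ • (1 + i • y) := rfl
    have hiy : (1 + i • y) * (1 - i • y) = (2 : F) • (1 : Module.End F (Fin n → F)) := by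
      rw [mul_sub, mul_one, add_mul, one_mul, smul_mul_smul_comm, hi, hyy, negsm]
      module
    have hiy' : (1 - i • y) * (1 + i • y) = (2 : F) • (1 : Module.End F (Fin n → F)) := by
      rw [mul_add, mul_one, sub_mul, one_mul, smul_mul_smul_comm, hi, hyy, negsm]
      module
    have htu : IsUnit t :=
      ⟨⟨t, ((1 + i) * (2 : F)⁻¹) • (1 - i • y),
        by rw [ht, smul_mul_smul_comm, hiy, smul_smul, show
          (1 + i)⁻¹ * ((1 + i) * (2 : F)⁻¹) * 2 = 1 by field_simp, one_smul],
        by rw [ht, smul_mul_smul_comm, hiy', smul_smul, show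
          (1 + i) * (2 : F)⁻¹ * (1 + i)⁻¹ * 2 = 1 by field_simp, one_smul]⟩, rfl⟩
    have hsa : ∀ u v, herm q (y u) v = herm q u (y v) := fun u v => by
      conv_rhs => rw [← hRiso y hy, ← Module.End.mul_apply y y v, hyy, Module.End.one_apply]
    refine ⟨htu, fun a ha => ?_, fun u v => ?_⟩
    · rcases hD.comm_sign y hy a ha with e | e
      · refine ⟨a, ha, ?_⟩
        rw [ht, smul_mul_assoc, mul_smul_comm, add_mul, mul_add, one_mul, mul_one,
          smul_mul_assoc, mul_smul_comm, e]
      · refine ⟨i • (y * a), hD.i_smul_mem (hD.mul_mem _ hy _ ha), ?_⟩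
        rw [ht, smul_mul_assoc (1 + i)⁻¹, mul_smul_comm]
        congr 1
        rw [add_mul, one_mul, smul_mul_assoc, mul_add, mul_one, smul_mul_smul_comm, hi,
          show y * a * y = -a by
            refine LinearMap.ext fun v => ?_
            have e2 : y (y v) = v := by rw [← Module.End.mul_apply, hyy, Module.End.one_apply]
            rw [e]
            simp [e2]]
        module
    · simp only [ht, LinearMap.smul_apply, LinearMap.add_apply, Module.End.one_apply,
          herm_smul_left, herm_smul_right, herm_add_left, hF.herm_add_right, inv_pow,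
          i_pow hF hq4 hi, hRiso y hy, hsa]
      have hh := hnorm
      field_simp
      linear_combination (-(herm q u v)) * hi - herm q u v * hh
  have hτG : ∀ y, τ y ∈ G → 1 + i • y ∈ G := by
    intro y hy
    obtain ⟨c, hc, h, hh, e⟩ := hy
    refine ⟨(1 + i) * c, mul_ne_zero hi1 hc, h, hh, ?_⟩
    rw [mul_smul, ← e, hτ, smul_smul, mul_inv_cancel₀ hi1, one_smul]
  have hpair : ∀ x ∈ RE, ∀ y ∈ RE, x * x = 1 → y * y = 1 → NS x → NS y →
      (1 + i • x) * (1 + i • y) ∈ G := by
    intro x hx y hy hxx hyy hxns hyns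
    obtain ⟨hux, hNx, hIx⟩ := hturn x hx hxx
    obtain ⟨huy, hNy, hIy⟩ := hturn y hy hyy
    obtain ⟨h, hh, e⟩ := hNmem (τ x * τ y) (hux.mul huy) (by
        rw [map_mul, (hRdet x hx hxx hxns).1, (hRdet y hy hyy hyns).1]
        obtain ⟨k, hk⟩ := hn4
        rw [show n / 2 = 2 * k by omega, ← mul_pow, show -i * -i = -1 by linear_combination hi,
          pow_mul, neg_one_sq, one_pow])
      (fun u v => by rw [Module.End.mul_apply, Module.End.mul_apply, hIx, hIy]) (hNx.mul hNy)
    refine ⟨(1 + i) * (1 + i), mul_ne_zero hi1 hi1, h, hh, ?_⟩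
    rw [e, hτ, smul_mul_smul_comm, smul_smul, mul_mul_mul_comm, mul_inv_cancel₀ hi1, one_mul,
      one_smul]
  have hsingle : (∃ l : F, l * l ^ q = 1 ∧ l ^ n * (-i) ^ (n / 2) = 1) →
      ∀ y ∈ RE, y * y = 1 → 1 + i • y ∈ G := by
    rintro ⟨l, hl, hld⟩ y hy hyy
    by_cases hns : NS y
    · obtain ⟨hu, hN', hI⟩ := hturn y hy hyy
      have hl0 : l ≠ 0 := fun h0 => by simp [h0] at hl
      obtain ⟨h, hh, e⟩ := hNmem (l • τ y)
        (by
          rw [← one_mul (τ y), ← smul_mul_assoc]
          exact IsUnit.mul ⟨⟨l • 1, l⁻¹ • 1, by simp [smul_smul, hl0], by simp [smul_smul, hl0]⟩,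
            rfl⟩ hu)
        (by rw [LinearMap.det_smul, Module.finrank_fin_fun, (hRdet y hy hyy hns).1, hld])
        (fun u v => by
          show herm q (l • τ y u) (l • τ y v) = herm q u v
          rw [herm_smul_left, herm_smul_right, ← mul_assoc, hl, one_mul, hI])
        (hN'.smul l)
      refine hτG y ⟨l⁻¹, inv_ne_zero hl0, h, hh, ?_⟩
      rw [e, smul_smul, inv_mul_cancel₀ hl0, one_smul]
    · simp only [NS, not_forall, not_not] at hns
      obtain ⟨c, rfl⟩ := hns
      have hcc : c * c = 1 := smul_one_inj (V := Fin n → F) (by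
        rw [smul_mul_smul_comm, mul_one] at hyy
        rw [hyy, one_smul])
      rw [smul_smul, show (1 : Module.End F (Fin n → F)) + (i * c) • 1 = (1 + i * c) • 1 by module]
      refine hGscal _ fun h0 => h2 ?_
      linear_combination (1 - i * c) * h0 + c * c * hi - hcc
  have hU : Simil q G := by
    rintro _ ⟨c, -, h, hh, rfl⟩
    exact ⟨c * c ^ q, fun u v => by
      rw [LinearMap.smul_apply, LinearMap.smul_apply, herm_smul_left, herm_smul_right,
        toEnd_apply, toEnd_apply, mul_assoc]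
      congr 2
      exact (hHS hh).1 u v⟩
  rcases hbet i RE G hD hRiso hU hGinv hGmul hGscal hGsub hpair hsingle with hn' | hall
  · refine absurd (fun g hg => Subgroup.mem_normalizer_fintype fun r hr => ?_) hN
    obtain ⟨_, ⟨r', hr', rfl⟩, e⟩ := hn' (toEnd g) ⟨1, one_ne_zero, g, hg, (one_smul F _).symm⟩ _
      ⟨r, hr, rfl⟩
    rw [toEnd_injective (a₁ := g * r) (a₂ := r' * g) (by rw [toEnd_mul, toEnd_mul, e]),
      mul_inv_cancel_right]
    exact hr'
  -- all transvections lie in `H`
  refine le_antisymm hHS ?_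
  set M : Subgroup (UG n F q) :=
    (H.map (glEquiv n F).toMonoidHom).comap (UG n F q).subtype with hMdef
  have hTG : TG n F q ≤ M := by
    refine (Subgroup.closure_le M).2 ?_
    rintro t ⟨e, a, hc, ht⟩
    rw [mem_TG_generator hF hc ht]
    obtain ⟨c, -, h, hh, he⟩ := hall e a hc
    have hpt : ∀ (k : ℕ) w, (trv hF hc ^ k : UG n F q).1 w =
        c ^ k • Matrix.mulVec ((h ^ k : GL (Fin n) F) : Matrix (Fin n) (Fin n) F) w := by
      intro k
      induction k with
      | zero => intro w; simp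
      | succ k ih =>
        intro w
        rw [pow_succ', Subgroup.coe_mul, LinearEquiv.mul_apply, ih, map_smul, pow_succ' h,
          Units.val_mul, ← Matrix.mulVec_mulVec]
        have := congrArg (fun f : Module.End F (Fin n → F) =>
          f (Matrix.mulVec ((h ^ k : GL (Fin n) F) : Matrix (Fin n) (Fin n) F) w)) he
        simp only [LinearEquiv.coe_coe, LinearMap.smul_apply, toEnd_apply] at this
        rw [this, smul_smul, pow_succ]
    have hdet : c ^ n = 1 := by
      have hd1 : LinearMap.det ((trv hF hc).1 : Module.End F (Fin n → F)) = 1 := by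
        have := mem_SUG.1 (TG_le_SUG hF (trv_mem hF hc))
        rw [← LinearEquiv.coe_det, this, Units.val_one]
      rw [he, LinearMap.det_smul, Module.finrank_fin_fun, det_toEnd] at hd1
      have : (h : Matrix (Fin n) (Fin n) F).det = 1 := by
        have := congrArg (fun u : Fˣ => (u : F)) (show Matrix.GeneralLinearGroup.det h = 1 from (hHS hh).2)
        simpa using this
      rwa [this, mul_one] at hd1
    -- exponents prime to `q` suffice
    obtain ⟨s, hs⟩ : ∃ s : ℕ, ((n * s : ℕ) : F) = 1 := by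
      haveI := Fact.mk hq
      refine ⟨((n : ZMod q)⁻¹).val, ?_⟩
      have hnq : (n : ZMod q) ≠ 0 := by rwa [Ne, ZMod.natCast_eq_zero_iff]
      calc ((n * ((n : ZMod q)⁻¹).val : ℕ) : F)
          = ZMod.castHom (dvd_refl q) F ((n * ((n : ZMod q)⁻¹).val : ℕ) : ZMod q) := by
            rw [map_natCast]
        _ = 1 := by rw [Nat.cast_mul, ZMod.natCast_zmod_val, mul_inv_cancel₀ hnq, map_one]
    rw [hMdef, SetLike.mem_coe, Subgroup.mem_comap]
    refine ⟨h ^ (n * s), H.pow_mem hh _, LinearEquiv.ext fun w => ?_⟩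
    have h1 := hpt (n * s) w
    rw [trv_pow, hs, one_mul, pow_mul, hdet, one_pow, one_smul] at h1
    simp only [MulEquiv.coe_toMonoidHom, glEquiv_apply, Subgroup.coe_subtype, trv_apply]
    exact h1.symm
  intro g hg
  let g' : UG n F q := ⟨glEquiv n F g, fun u v => by rw [glEquiv_apply, glEquiv_apply]; exact hg.1 u v⟩
  have hg' : g' ∈ SUG n F q := by
    rw [mem_SUG, det_glEquiv]
    exact hg.2
  rw [SUG_eq_TG hF (by omega) (fun h => hq2 h.2)] at hg'
  have h9 := hTG hg'
  rw [hMdef, Subgroup.mem_comap] at h9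
  obtain ⟨k, hk, e⟩ := h9
  rwa [(glEquiv n F).injective e] at hk

/-- A group containing the quarter turns is a `Grp`. -/
theorem between_of_dichotomy (hdich : Dichotomy n F q hF)
    (hl : ∀ i : F, i * i = -1 → ∃ l : F, l * l ^ q = 1 ∧ l ^ n * (-i) ^ (n / 2) = 1) :
    Between n F q hF := by
  intro i R G hD hR hU hinv hmul hscal hsub _ hsingle
  rcases hdich i R G hD ⟨hinv, hmul, hscal, hsub, hsingle (hl i hD.sq_i)⟩ hR hU with h | h
  · exact Or.inl h
  · exact Or.inr fun e a hc => (h e hc.1).2 a hc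

/-- Maximality from the dichotomy. -/
theorem suGL_normalizer_maximal (hq : q.Prime) (hq4 : q % 4 = 3) (hn : n = 8)
    (hdich : Dichotomy n F q hF)
    {R : Subgroup (GL (Fin n) F)} (hst : Geo.IsSymplecticTypeGroup 2 R)
    (hirr : Geo.ActsAbsolutelyIrreducibly (Geo.matrixSet R)) (hRU : R ≤ Cfsg.GU n F q)
    (hZ : Nat.card (Subgroup.center R) = 4) :
    Geo.IsMaximalIn (Cfsg.GU n F q ⊓ Geo.specialLinear (Fin n) F)
      (Geo.subgroupNormalizer R ⊓ (Cfsg.GU n F q ⊓ Geo.specialLinear (Fin n) F)) := by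
  subst hn
  refine suGL_normalizer_maximal_of hF hq hq4 (by norm_num) (by norm_num) (fun h => ?_)
    (between_of_dichotomy hF hdich fun i hi => ⟨1, by rw [one_mul, one_pow], ?_⟩) hst hirr hRU hZ
  · have := (Nat.prime_dvd_prime_iff_eq hq Nat.prime_two).1
      (hq.dvd_of_dvd_pow (show q ∣ 2 ^ 3 by simpa using h))
    omega
  · rw [one_pow, one_mul]
    linear_combination (i * i - 1) * hi

end Cfsg.Agent.MaxSub.CSixU
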